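import Mathlib
import Cfsg.Prelude.Def_PLocal

/-! Regular `p`-groups: the basic equivalences (namespace `Cfsg.Agent.H20`). -/

set_option autoImplicit false
set_option linter.unusedVariables false
set_option linter.style.haveILetI false

namespace Cfsg.Agent.H20

open Cfsg

variable {G : Type*} [Group G]

/-- The commutator subgroup of `⟨a, b⟩` lies in `T` when `T` is normalized by `⟨a, b⟩` and `a` is central
modulo `T`. -/
theorem commutator_closure_pair_le {T : Subgroup G} {a b : G}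
    (hT : ∀ g ∈ Subgroup.closure ({a, b} : Set G), ∀ t ∈ T, g * t * g⁻¹ ∈ T)
    (ha : ∀ g ∈ Subgroup.closure ({a, b} : Set G), a * g * a⁻¹ * g⁻¹ ∈ T) :
    ⁅Subgroup.closure ({a, b} : Set G), Subgroup.closure ({a, b} : Set G)⁆ ≤ T := by
  have haH : a ∈ Subgroup.closure ({a, b} : Set G) := Subgroup.subset_closure (by simp)
  have hbH : b ∈ Subgroup.closure ({a, b} : Set G) := Subgroup.subset_closure (by simp)
  have step : ∀ y ∈ Subgroup.closure ({a, b} : Set G), b * y * b⁻¹ * y⁻¹ ∈ T →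
      ∀ x ∈ Subgroup.closure ({a, b} : Set G), x * y * x⁻¹ * y⁻¹ ∈ T := by
    intro y hy hby x hx
    induction hx using Subgroup.closure_induction with
    | mem x hx =>
      rcases hx with rfl | rfl
      · exact ha y hy
      · exact hby
    | one => simp
    | mul x₁ x₂ h₁ h₂ ih₁ ih₂ =>
      have e : x₁ * x₂ * y * (x₁ * x₂)⁻¹ * y⁻¹ =
          (x₁ * (x₂ * y * x₂⁻¹ * y⁻¹) * x₁⁻¹) * (x₁ * y * x₁⁻¹ * y⁻¹) := by group
      rw [e]
      exact T.mul_mem (hT _ h₁ _ ih₂) ih₁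
    | inv x h ih =>
      have e : x⁻¹ * y * x⁻¹⁻¹ * y⁻¹ = x⁻¹ * (x * y * x⁻¹ * y⁻¹)⁻¹ * x⁻¹⁻¹ := by group
      rw [e]
      exact hT _ (inv_mem h) _ (T.inv_mem ih)
  have hb : ∀ x ∈ Subgroup.closure ({a, b} : Set G), x * b * x⁻¹ * b⁻¹ ∈ T :=
    step b hbH (by simp)
  rw [Subgroup.commutator_le]
  intro x hx y hy
  have h1 := step y hy (by
    have h2 := T.inv_mem (hb y hy)
    have e : b * y * b⁻¹ * y⁻¹ = (y * b * y⁻¹ * b⁻¹)⁻¹ := by group
    rw [e]; exact h2) x hx
  simpa [commutatorElement_def] using h1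

theorem powerClosure_eq_bot {p n : ℕ} {K : Subgroup G} (h : ∀ x ∈ K, x ^ p ^ n = 1) :
    powerClosure p n K = ⊥ := by
  rw [powerClosure, Subgroup.closure_eq_bot_iff]
  rintro y ⟨x, hx, rfl⟩
  simp [h x hx]

variable [Finite G] {p : ℕ}

theorem card_lt_of_lt' {A B : Subgroup G} (h : A < B) : Nat.card A < Nat.card B :=
  lt_of_le_of_ne (Nat.le_of_dvd Nat.card_pos (Subgroup.card_dvd_of_le h.le))
    (fun e => h.ne (Subgroup.eq_of_le_of_card_ge h.le e.ge))

/-- A proper subgroup of a finite nilpotent subgroup `H` containing `a` lies in a proper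
subgroup normalized by `H`. -/
theorem exists_normal_proper_of_nil {H : Subgroup G} (hH : Group.IsNilpotent H) {a : G} (ha : a ∈ H)
    (hne : Subgroup.zpowers a ≠ H) :
    ∃ L : Subgroup G, L < H ∧ a ∈ L ∧ ∀ g ∈ H, ∀ t ∈ L, g * t * g⁻¹ ∈ L := by
  have hle : Subgroup.zpowers a ≤ H := by rwa [Subgroup.zpowers_le]
  have hA : (Subgroup.zpowers a).subgroupOf H ≠ ⊤ := by
    intro e
    apply hne
    apply le_antisymm hle
    intro x hx
    have : (⟨x, hx⟩ : H) ∈ (Subgroup.zpowers a).subgroupOf H := by rw [e]; trivial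
    exact Subgroup.mem_subgroupOf.1 this
  obtain ⟨M, hM, hAM⟩ := (eq_top_or_exists_le_coatom _).resolve_left hA
  have hN : Subgroup.normalizer (M : Set H) = ⊤ := by
    have h1 := Group.normalizerCondition_of_isNilpotent (G := H) M hM.lt_top
    exact hM.2 _ h1
  have hMn : M.Normal := Subgroup.normalizer_eq_top_iff.1 hN
  refine ⟨M.map H.subtype, ?_, ?_, ?_⟩
  · apply lt_of_le_of_ne
    · rintro _ ⟨y, _, rfl⟩; exact y.2
    · intro e
      apply hM.1
      rw [eq_top_iff]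
      intro y _
      have hy : (y : G) ∈ M.map H.subtype := by rw [e]; exact y.2
      obtain ⟨z, hz, hzy⟩ := hy
      have : z = y := Subtype.ext hzy
      rwa [← this]
  · refine ⟨⟨a, ha⟩, ?_, rfl⟩
    apply hAM
    exact Subgroup.mem_subgroupOf.2 (Subgroup.mem_zpowers a)
  · rintro g hg _ ⟨y, hy, rfl⟩
    exact ⟨⟨g, hg⟩ * y * (⟨g, hg⟩ : H)⁻¹, hMn.conj_mem y hy _, rfl⟩

/-- Regular `p`-groups: `a ^ q = b ^ q` implies `(a⁻¹ b) ^ q = 1`, within any subgroup. -/
theorem reg_fwd_aux [Fact p.Prime] (hG : IsRegularPGroup p G) (n : ℕ) : ∀ (m : ℕ) (G₀ : Subgroup G), Nat.card G₀ = m →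
    ∀ a ∈ G₀, ∀ b ∈ G₀, a ^ p ^ n = b ^ p ^ n → (a⁻¹ * b) ^ p ^ n = 1 := by
  intro m
  induction m using Nat.strong_induction_on with
  | _ m ih =>
  intro G₀ hm a ha b hb hab
  set H : Subgroup G := Subgroup.closure ({a, b} : Set G) with hH
  have haH : a ∈ H := Subgroup.subset_closure (by simp)
  have hbH : b ∈ H := Subgroup.subset_closure (by simp)
  have hHle : H ≤ G₀ := by
    rw [hH, Subgroup.closure_le]
    rintro x (rfl | rfl)
    · exact ha
    · exact hb
  by_cases hHG : H = G₀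
  swap
  · have hlt : Nat.card H < m := by
      rw [← hm]
      exact card_lt_of_lt' (lt_of_le_of_ne hHle hHG)
    exact ih _ hlt H rfl a haH b hbH hab
  -- `H = G₀`: now induct on proper subgroups of `H`
  have hIH : ∀ L : Subgroup G, L < H → ∀ x ∈ L, ∀ y ∈ L, x ^ p ^ n = y ^ p ^ n → (x⁻¹ * y) ^ p ^ n = 1 := by
    intro L hL x hx y hy hxy
    have hlt : Nat.card L < m := by
      rw [← hm, ← hHG]
      exact card_lt_of_lt' hL
    exact ih _ hlt L rfl x hx y hy hxy
  by_cases hcyc : b ∈ Subgroup.zpowers a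
  · obtain ⟨k, rfl⟩ := Subgroup.mem_zpowers_iff.1 hcyc
    have hc : Commute a⁻¹ (a ^ k) := (Commute.refl a).inv_left.zpow_right k
    rw [hc.mul_pow, inv_pow, ← hab]
    simp
  -- a maximal subgroup of `H` containing `a`
  have hPH : IsPGroup p H := hG.1.to_subgroup H
  have hnil : Group.IsNilpotent H := hPH.isNilpotent
  have hne : Subgroup.zpowers a ≠ H := by
    intro e
    exact hcyc (e ▸ hbH)
  obtain ⟨L, hLH, haL, hLn⟩ := exists_normal_proper_of_nil hnil haH hne
  have hIL := hIH L hLH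
  -- the subgroup of elements of `L` with `q`-th power one
  let T : Subgroup G :=
    { carrier := {x | x ∈ L ∧ x ^ p ^ n = 1}
      one_mem' := ⟨L.one_mem, one_pow _⟩
      mul_mem' := by
        rintro x y ⟨hx, hx1⟩ ⟨hy, hy1⟩
        refine ⟨L.mul_mem hx hy, ?_⟩
        have := hIL x⁻¹ (L.inv_mem hx) y hy (by rw [inv_pow, hx1, hy1, inv_one])
        simpa using this
      inv_mem' := by
        rintro x ⟨hx, hx1⟩
        exact ⟨L.inv_mem hx, by rw [inv_pow, hx1, inv_one]⟩ }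
  have hTmem : ∀ x, x ∈ T ↔ x ∈ L ∧ x ^ p ^ n = 1 := fun x => Iff.rfl
  have hcentral : ∀ g ∈ H, g * a ^ p ^ n * g⁻¹ = a ^ p ^ n := by
    have hle : H ≤ Subgroup.centralizer ({a ^ p ^ n} : Set G) := by
      rw [hH, Subgroup.closure_le]
      rintro x (rfl | rfl)
      · exact Subgroup.mem_centralizer_singleton_iff.2 ((Commute.refl x).pow_right _).eq
      · rw [SetLike.mem_coe, hab]
        exact Subgroup.mem_centralizer_singleton_iff.2 ((Commute.refl x).pow_right _).eq
    intro g hg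
    have := Subgroup.mem_centralizer_singleton_iff.1 (hle hg)
    rw [this]
    group
  have hcomm : ⁅H, H⁆ ≤ T := by
    apply commutator_closure_pair_le
    · rintro g hg t ⟨ht, ht1⟩
      refine ⟨hLn g hg t ht, ?_⟩
      rw [conj_pow, ht1]
      group
    · intro g hg
      have h1 : g * a⁻¹ * g⁻¹ ∈ L := hLn g hg _ (L.inv_mem haL)
      have h2 := hIL a⁻¹ (L.inv_mem haL) _ h1 (by
        rw [conj_pow, inv_pow]
        have h3 : g * (a ^ p ^ n)⁻¹ * g⁻¹ = (g * a ^ p ^ n * g⁻¹)⁻¹ := by group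
        rw [h3, hcentral g hg])
      have e : a⁻¹⁻¹ * (g * a⁻¹ * g⁻¹) = a * g * a⁻¹ * g⁻¹ := by group
      rw [e] at h2
      refine ⟨?_, h2⟩
      rw [← e]
      exact L.mul_mem (by simpa using haL) h1
  have hle : Subgroup.closure ({a, a⁻¹ * b} : Set G) ≤ H := by
    rw [Subgroup.closure_le]
    rintro x (rfl | rfl)
    · exact haH
    · exact H.mul_mem (H.inv_mem haH) hbH
  obtain ⟨c, hc, he⟩ := hG.2 a (a⁻¹ * b) n
  have hcb : c = 1 := by
    have h1 : powerClosure p n ⁅Subgroup.closure ({a, a⁻¹ * b} : Set G), Subgroup.closure ({a, a⁻¹ * b} : Set G)⁆ = ⊥ := by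
      apply powerClosure_eq_bot
      intro x hx
      exact (hcomm (Subgroup.commutator_mono hle hle hx)).2
    rw [h1] at hc
    simpa using hc
  rw [hcb, mul_one, mul_inv_cancel_left, hab] at he
  exact (mul_eq_left.1 he.symm)

/-- In a regular `p`-group, `a ^ q = b ^ q` implies `(a⁻¹ b) ^ q = 1`. -/
theorem reg_fwd [Fact p.Prime] (hG : IsRegularPGroup p G) (n : ℕ) (a b : G) (h : a ^ p ^ n = b ^ p ^ n) :
    (a⁻¹ * b) ^ p ^ n = 1 :=
  reg_fwd_aux hG n _ ⊤ rfl a (Subgroup.mem_top a) b (Subgroup.mem_top b) h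

/-- In a regular `p`-group the elements of exponent dividing `p ^ n` form a subgroup. -/
def regOmega [Fact p.Prime] (hG : IsRegularPGroup p G) (n : ℕ) : Subgroup G where
  carrier := {x | x ^ p ^ n = 1}
  one_mem' := one_pow _
  mul_mem' := by
    intro x y hx hy
    have hx' : x ^ p ^ n = 1 := hx
    have hy' : y ^ p ^ n = 1 := hy
    have := reg_fwd hG n x⁻¹ y (by rw [inv_pow, hx', hy', inv_one])
    simpa using this
  inv_mem' := by
    intro x hx
    have hx' : x ^ p ^ n = 1 := hx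
    show x⁻¹ ^ p ^ n = 1
    rw [inv_pow, hx', inv_one]

theorem mem_regOmega [Fact p.Prime] (hG : IsRegularPGroup p G) (n : ℕ) (x : G) :
    x ∈ regOmega hG n ↔ x ^ p ^ n = 1 := Iff.rfl

/-- In a regular `p`-group, `(u b)`-powers: if `u ^ q = 1` then `(u * b) ^ q = b ^ q`. -/
theorem reg_rev [Fact p.Prime] (hG : IsRegularPGroup p G) (n : ℕ) (u b : G) (hu : u ^ p ^ n = 1) :
    (u * b) ^ p ^ n = b ^ p ^ n := by
  have hcomm : ⁅Subgroup.closure ({u, b} : Set G), Subgroup.closure ({u, b} : Set G)⁆ ≤ regOmega hG n := by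
    apply commutator_closure_pair_le
    · intro g hg t ht
      show (g * t * g⁻¹) ^ p ^ n = 1
      rw [conj_pow, (show t ^ p ^ n = 1 from ht)]
      group
    · intro g hg
      have h1 : (g * u⁻¹ * g⁻¹) ^ p ^ n = 1 := by
        rw [conj_pow, inv_pow, hu, inv_one]
        group
      have e : u * g * u⁻¹ * g⁻¹ = u * (g * u⁻¹ * g⁻¹) := by group
      rw [e]
      exact (regOmega hG n).mul_mem hu h1
  obtain ⟨c, hc, he⟩ := hG.2 u b n
  have hcb : c = 1 := by
    have h1 : powerClosure p n ⁅Subgroup.closure ({u, b} : Set G), Subgroup.closure ({u, b} : Set G)⁆ = ⊥ :=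
      powerClosure_eq_bot (fun x hx => hcomm hx)
    rw [h1] at hc
    simpa using hc
  rw [hcb, mul_one, hu, one_mul] at he
  exact he

end Cfsg.Agent.H20
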