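import Mathlib
import Cfsg.Agent.Lib.H19.FrobCount

/-! Frobenius' count for a conjugacy class (helper20). -/

set_option autoImplicit false
set_option linter.style.haveILetI false
set_option linter.unusedSectionVars false

namespace Cfsg.Agent.H20

open Cfsg.Agent.H19

/-- Roots of a nontrivial `p`-element in a cyclic subgroup. -/
theorem pow_dvd_card_root {Y : Type*} [Group Y] [Finite Y] {p : ℕ} (hp : p.Prime) (a : ℕ) {d : Y}
    {f : ℕ} (hd : d ^ (p ^ f) = 1) (hd1 : d ≠ 1) :
    p ^ a ∣ Nat.card {u : Y // u ^ (p ^ a) = d} := by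
  classical
  haveI := Fintype.ofFinite Y
  haveI := Fact.mk hp
  rw [Nat.card_eq_fintype_card, Fintype.card_subtype]
  set S := Finset.univ.filter (fun u : Y => u ^ (p ^ a) = d) with hS
  rw [Finset.card_eq_sum_card_image (fun x : Y => Subgroup.zpowers x) S]
  apply Finset.dvd_sum
  intro H hH
  obtain ⟨u, hu, rfl⟩ := Finset.mem_image.1 hH
  have hu' : u ^ (p ^ a) = d := (Finset.mem_filter.1 hu).2
  obtain ⟨g, -, hg⟩ := (Nat.dvd_prime_pow hp).1 (orderOf_dvd_of_pow_eq_one hd)
  have hg0 : g ≠ 0 := by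
    rintro rfl
    rw [pow_zero, orderOf_eq_one_iff] at hg
    exact hd1 hg
  have hord : ∀ x : Y, x ^ (p ^ a) = d → orderOf x = p ^ (a + g) := by
    intro x hx
    have h1 : x ^ (p ^ (a + f)) = 1 := by
      rw [pow_add, pow_mul, hx, hd]
    obtain ⟨r, -, hr⟩ := (Nat.dvd_prime_pow hp).1 (orderOf_dvd_of_pow_eq_one h1)
    by_cases hra : r ≤ a
    · exfalso
      apply hd1
      rw [← hx]
      apply orderOf_dvd_iff_pow_eq_one.1
      rw [hr]
      exact pow_dvd_pow p hra
    · have hra' : a ≤ r := by omega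
      have h2 : p ^ a ∣ orderOf x := by rw [hr]; exact pow_dvd_pow p hra'
      have h3 := orderOf_pow_of_dvd (x := x) (pow_ne_zero a hp.ne_zero) h2
      rw [hx, hg, hr, Nat.pow_div hra' hp.pos] at h3
      have h4 := Nat.pow_right_injective hp.two_le h3
      rw [hr]
      congr 1
      omega
  have huord := hord u hu'
  set k := u ^ (p ^ g) with hk
  have hkord : orderOf k = p ^ a := by
    have h2 : p ^ g ∣ orderOf u := by rw [huord]; exact pow_dvd_pow p (by omega)
    rw [hk, orderOf_pow_of_dvd (pow_ne_zero g hp.ne_zero) h2, huord, Nat.pow_div (by omega) hp.pos]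
    congr 1
    omega
  have hcard : (S.filter (fun x => Subgroup.zpowers x = Subgroup.zpowers u)).card =
      Nat.card (Subgroup.zpowers k) := by
    rw [← Fintype.card_coe, ← Nat.card_eq_fintype_card]
    apply Nat.card_congr
    have hcomm : ∀ z ∈ Subgroup.zpowers k, Commute z u := by
      intro z hz
      obtain ⟨i, rfl⟩ := Subgroup.mem_zpowers_iff.1 hz
      exact ((Commute.refl u).pow_left _).zpow_left i
    have hkpow : k ^ (p ^ a) = 1 := by
      rw [← hkord]; exact pow_orderOf_eq_one k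
    have hzpow : ∀ z ∈ Subgroup.zpowers k, z ^ (p ^ a) = 1 := by
      intro z hz
      obtain ⟨i, rfl⟩ := Subgroup.mem_zpowers_iff.1 hz
      rw [← zpow_natCast, ← zpow_mul, mul_comm, zpow_mul, zpow_natCast, hkpow, one_zpow]
    have hzmem : ∀ z ∈ Subgroup.zpowers k, z ∈ Subgroup.zpowers u := by
      intro z hz
      obtain ⟨i, rfl⟩ := Subgroup.mem_zpowers_iff.1 hz
      exact Subgroup.zpow_mem _ (Subgroup.pow_mem _ (Subgroup.mem_zpowers u) _) _
    have hto : ∀ x : Y, x ∈ S.filter (fun x => Subgroup.zpowers x = Subgroup.zpowers u) →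
        x * u⁻¹ ∈ Subgroup.zpowers k := by
      intro x hx
      have hx1 := Finset.mem_filter.1 hx
      have hx2 : x ^ (p ^ a) = d := (Finset.mem_filter.1 hx1.1).2
      have hx3 : x ∈ Subgroup.zpowers u := by rw [← hx1.2]; exact Subgroup.mem_zpowers x
      have hw : x * u⁻¹ ∈ Subgroup.zpowers u :=
        Subgroup.mul_mem _ hx3 (Subgroup.inv_mem _ (Subgroup.mem_zpowers u))
      have hw2 : x * u⁻¹ ∈ Submonoid.powers u := by
        rw [mem_powers_iff_mem_zpowers]; exact hw
      obtain ⟨j, hj⟩ := hw2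
      have hcomm2 : Commute x u⁻¹ := by
        obtain ⟨i, rfl⟩ := Subgroup.mem_zpowers_iff.1 hx3
        exact ((Commute.refl u).zpow_left i).inv_right
      have h5 : (u ^ j) ^ (p ^ a) = 1 := by
        simp only at hj
        rw [hj, hcomm2.mul_pow, hx2, inv_pow, hu', mul_inv_cancel]
      have h6 : p ^ (a + g) ∣ j * p ^ a := by
        rw [← huord]
        apply orderOf_dvd_of_pow_eq_one
        rw [pow_mul]; exact h5
      have h7 : p ^ g ∣ j := by
        rw [pow_add, mul_comm (p ^ a)] at h6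
        exact Nat.dvd_of_mul_dvd_mul_right (pow_pos hp.pos a) h6
      obtain ⟨j', rfl⟩ := h7
      rw [← hj]
      simp only
      rw [pow_mul]
      exact Subgroup.pow_mem _ (Subgroup.mem_zpowers k) _
    have hfrom : ∀ z ∈ Subgroup.zpowers k, z * u ∈
        S.filter (fun x => Subgroup.zpowers x = Subgroup.zpowers u) := by
      intro z hz
      have h1 : (z * u) ^ (p ^ a) = d := by
        rw [(hcomm z hz).mul_pow, hzpow z hz, one_mul, hu']
      rw [Finset.mem_filter]
      refine ⟨Finset.mem_filter.2 ⟨Finset.mem_univ _, h1⟩, ?_⟩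
      apply Subgroup.eq_of_le_of_card_ge
      · rw [Subgroup.zpowers_le]
        exact Subgroup.mul_mem _ (hzmem z hz) (Subgroup.mem_zpowers u)
      · rw [Nat.card_zpowers, Nat.card_zpowers, hord _ h1, huord]
    exact ⟨fun x => ⟨x.1 * u⁻¹, hto x.1 x.2⟩, fun z => ⟨z.1 * u, hfrom z.1 z.2⟩,
      fun x => Subtype.ext (by simp), fun z => Subtype.ext (by simp)⟩
  rw [hcard, Nat.card_zpowers, hkord]

/-- The key count inside a single group. -/
theorem key_count {Y : Type*} [Group Y] [Finite Y] {p : ℕ} (hp : p.Prime) (e a b : ℕ)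
    (hb : Nat.Coprime b p) (he : (Nat.card Y).factorization p ≤ e) (d : Y) (hd : d ^ (p ^ e) = 1) :
    p ^ (min a ((Nat.card Y).factorization p)) ∣
      Nat.card {u : Y // u ^ (p ^ e) = 1 ∧ u ^ (p ^ a * b) = d} := by
  classical
  have hY0 : Nat.card Y ≠ 0 := Nat.card_pos.ne'
  have h1lt : 1 < p ^ (e + 1) := Nat.one_lt_pow (by omega) hp.one_lt
  obtain ⟨b', -, hb'⟩ := Nat.exists_mul_mod_eq_one_of_coprime (hb.pow_right (e + 1)) h1lt
  have hbb : b * b' ≡ 1 [MOD p ^ e] := by
    have h1 : b * b' ≡ 1 [MOD p ^ (e + 1)] := by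
      show b * b' % _ = 1 % _
      rw [hb', Nat.mod_eq_of_lt h1lt]
    exact h1.of_dvd (pow_dvd_pow p (Nat.le_succ e))
  set d' := d ^ b' with hd'
  have hiff : ∀ u : Y, u ^ (p ^ e) = 1 → (u ^ (p ^ a * b) = d ↔ u ^ (p ^ a) = d') := by
    intro u hu
    have hw : (u ^ (p ^ a)) ^ (p ^ e) = 1 := by
      rw [← pow_mul, mul_comm, pow_mul, hu, one_pow]
    constructor
    · intro h
      rw [hd', ← h, pow_mul u (p ^ a) b, ← pow_mul _ b b', pow_eq_of_modEq hw hbb, pow_one]
    · intro h
      rw [pow_mul, h, hd', ← pow_mul, mul_comm b', pow_eq_of_modEq hd hbb, pow_one]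
  have hg := he
  set g := (Nat.card Y).factorization p with hgdef
  have hordProj : ordProj[p] (Nat.card Y) = p ^ g := rfl
  by_cases hd1 : d' = 1
  · -- trivial root
    by_cases hag : a ≤ g
    · rw [min_eq_left hag]
      have h1 : p ^ a ∣ Nat.card Y := (hp.pow_dvd_iff_le_factorization hY0).2 hag
      have h2 := pow_dvd_sol hp h1
      have h3 : sol Y (p ^ a) = Nat.card {u : Y // u ^ (p ^ e) = 1 ∧ u ^ (p ^ a * b) = d} := by
        apply Nat.card_congr
        have hae : a ≤ e := hag.trans hg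
        refine ⟨fun x => ⟨x.1, ?_⟩, fun x => ⟨x.1, ?_⟩, fun x => rfl, fun x => rfl⟩
        · have h4 : x.1 ^ (p ^ e) = 1 := by
            obtain ⟨c, hc⟩ := Nat.exists_eq_add_of_le hae
            rw [hc, pow_add, pow_mul, x.2, one_pow]
          refine ⟨h4, (hiff _ h4).2 ?_⟩
          rw [hd1]; exact x.2
        · have h4 := (hiff _ x.2.1).1 x.2.2
          rw [hd1] at h4; exact h4
      rwa [h3] at h2
    · have hag' : g ≤ a := by omega
      rw [min_eq_right hag']
      have h2 := ordProj_dvd_sol hp _ Y rfl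
      have h3 : sol Y (ordProj[p] (Nat.card Y)) =
          Nat.card {u : Y // u ^ (p ^ e) = 1 ∧ u ^ (p ^ a * b) = d} := by
        apply Nat.card_congr
        refine ⟨fun x => ⟨x.1, ?_⟩, fun x => ⟨x.1, ?_⟩, fun x => rfl, fun x => rfl⟩
        · have hx : x.1 ^ (p ^ g) = 1 := x.2
          have h4 : x.1 ^ (p ^ e) = 1 := by
            obtain ⟨c, hc⟩ := Nat.exists_eq_add_of_le hg
            rw [hc, pow_add, pow_mul, hx, one_pow]
          refine ⟨h4, (hiff _ h4).2 ?_⟩
          rw [hd1]
          obtain ⟨c, hc⟩ := Nat.exists_eq_add_of_le hag'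
          rw [hc, pow_add, pow_mul, hx, one_pow]
        · exact pow_ordProj_eq_one hp x.2.1
      rwa [h3] at h2
  · -- nontrivial root
    have hd'p : d' ^ (p ^ e) = 1 := by
      rw [hd', ← pow_mul, mul_comm, pow_mul, hd, one_pow]
    have h2 := pow_dvd_card_root hp a hd'p hd1
    have h3 : Nat.card {u : Y // u ^ (p ^ a) = d'} =
        Nat.card {u : Y // u ^ (p ^ e) = 1 ∧ u ^ (p ^ a * b) = d} := by
      apply Nat.card_congr
      refine ⟨fun x => ⟨x.1, ?_⟩, fun x => ⟨x.1, ?_⟩, fun x => rfl, fun x => rfl⟩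
      · have h4 : x.1 ^ (p ^ (a + e)) = 1 := by
          rw [pow_add, pow_mul, x.2, hd'p]
        have h5 : x.1 ^ (p ^ g) = 1 := pow_ordProj_eq_one hp h4
        have h6 : x.1 ^ (p ^ e) = 1 := by
          obtain ⟨c, hc⟩ := Nat.exists_eq_add_of_le hg
          rw [hc, pow_add, pow_mul, h5, one_pow]
        exact ⟨h6, (hiff _ h6).2 x.2⟩
      · exact (hiff _ x.2.1).1 x.2.2
    rw [← h3]
    exact (pow_dvd_pow p (min_le_left _ _)).trans h2

/-- The count of roots of a central element. -/
theorem main_central {X : Type*} [Group X] [Finite X] (c : X) (hc : c ∈ Subgroup.center X) {n : ℕ}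
    (hn : n ≠ 0) {p : ℕ} (hp : p.Prime) :
    p ^ (min (n.factorization p) ((Nat.card X).factorization p)) ∣ Nat.card {x : X // x ^ n = c} := by
  classical
  haveI := Fintype.ofFinite X
  have hX0 : Nat.card X ≠ 0 := Nat.card_pos.ne'
  set a := n.factorization p with ha
  set b := ordCompl[p] n with hb
  have hnab : p ^ a * b = n := Nat.ordProj_mul_ordCompl_eq_self n p
  have hbcop : Nat.Coprime b p := (Nat.coprime_ordCompl hp hn).symm
  set e := (Nat.card X).factorization p with he
  set s := ordCompl[p] (Nat.card X) with hs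
  have hscop : s.Coprime (p ^ e) := (Nat.Coprime.pow_left e (Nat.coprime_ordCompl hp hX0)).symm
  have hall : ∀ x : X, x ^ (s * p ^ e) = 1 := by
    intro x
    rw [mul_comm, he, hs, Nat.ordProj_mul_ordCompl_eq_self]
    exact pow_card_eq_one'
  obtain ⟨k, l, htk, hsl, hk, hl, hkl⟩ := exists_decomp_exps hscop
  set d := c ^ l with hd
  set c₀ := c ^ k with hc₀
  have hdcen : d ∈ Subgroup.center X := Subgroup.pow_mem _ hc _
  have hdp : d ^ (p ^ e) = 1 := by
    obtain ⟨l', rfl⟩ := hsl
    rw [hd, ← pow_mul, show s * l' * p ^ e = (s * p ^ e) * l' by ring, pow_mul, hall, one_pow]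
  -- the decomposition
  have key1 : ∀ v u : X, v ^ s = 1 → u ^ (p ^ e) = 1 → Commute v u → (v * u) ^ k = v := by
    intro v u hv hu hvu
    rw [hvu.mul_pow, pow_eq_of_modEq hv hk]
    obtain ⟨a', rfl⟩ := htk
    rw [pow_mul u (p ^ e) a', hu, one_pow, mul_one, pow_one]
  have key2 : ∀ v u : X, v ^ s = 1 → u ^ (p ^ e) = 1 → Commute v u → (v * u) ^ l = u := by
    intro v u hv hu hvu
    rw [hvu.mul_pow, pow_eq_of_modEq hu hl]
    obtain ⟨a', rfl⟩ := hsl
    rw [pow_mul v s a', hv, one_pow, one_mul, pow_one]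
  have hxs : ∀ x : X, (x ^ k) ^ s = 1 := by
    intro x
    obtain ⟨a', rfl⟩ := htk
    rw [← pow_mul, show p ^ e * a' * s = (s * p ^ e) * a' by ring, pow_mul, hall, one_pow]
  have hxt : ∀ x : X, (x ^ l) ^ (p ^ e) = 1 := by
    intro x
    obtain ⟨a', rfl⟩ := hsl
    rw [← pow_mul, show s * a' * p ^ e = (s * p ^ e) * a' by ring, pow_mul, hall, one_pow]
  have hmul : ∀ x : X, x ^ k * x ^ l = x := by
    intro x
    rw [← pow_add, pow_eq_of_modEq (hall x) hkl, pow_one]
  let E : {x : X // x ^ n = c} ≃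
      Σ v : {v : X // v ^ s = 1 ∧ v ^ n = c₀}, {u : X // u ^ (p ^ e) = 1 ∧ Commute v.1 u ∧ u ^ n = d} :=
    { toFun := fun x => ⟨⟨x.1 ^ k, hxs _, by
          rw [← pow_mul, mul_comm, pow_mul, x.2]⟩,
        ⟨x.1 ^ l, hxt _, Commute.pow_pow_self _ _ _, by
          rw [← pow_mul, mul_comm, pow_mul, x.2]⟩⟩
      invFun := fun y => ⟨y.1.1 * y.2.1, by
        have h1 : Commute y.1.1 y.2.1 := y.2.2.2.1
        rw [h1.mul_pow, y.1.2.2, y.2.2.2.2, hc₀, hd, ← pow_add, pow_eq_of_modEq (hall c) hkl, pow_one]⟩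
      left_inv := fun x => Subtype.ext (hmul x.1)
      right_inv := by
        rintro ⟨⟨v, hv⟩, ⟨u, hu⟩⟩
        have h1 := key1 v u hv.1 hu.1 hu.2.1
        have h2 := key2 v u hv.1 hu.1 hu.2.1
        apply Sigma.subtype_ext
        · exact Subtype.ext h1
        · exact h2 }
  rw [Nat.card_congr E, Nat.card_sigma]
  set V := Finset.univ.filter (fun v : X => v ^ s = 1 ∧ v ^ n = c₀) with hV
  let T : X → ℕ := fun v => Nat.card {u : X // u ^ (p ^ e) = 1 ∧ Commute v u ∧ u ^ n = d}
  have hsum : (∑ v : {v : X // v ^ s = 1 ∧ v ^ n = c₀},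
      Nat.card {u : X // u ^ (p ^ e) = 1 ∧ Commute v.1 u ∧ u ^ n = d}) = ∑ v ∈ V, T v := by
    rw [Finset.sum_subtype (p := fun v : X => v ^ s = 1 ∧ v ^ n = c₀) (s := V) (by simp [hV])]
  rw [hsum]
  have hTconj : ∀ v g : X, T (g * v * g⁻¹) = T v := by
    intro v g
    apply Nat.card_congr
    have hdg : ∀ g : X, g * d * g⁻¹ = d := by
      intro g
      rw [Subgroup.mem_center_iff.1 hdcen g, mul_inv_cancel_right]
    refine ⟨fun x => ⟨g⁻¹ * x.1 * g, ?_, ?_, ?_⟩, fun x => ⟨g * x.1 * g⁻¹, ?_, ?_, ?_⟩, ?_, ?_⟩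
    · have := conj_pow (a := g⁻¹) (b := x.1) (i := p ^ e)
      simp only [inv_inv] at this
      rw [this, x.2.1]; group
    · have h1 : g * v * g⁻¹ * x.1 = x.1 * (g * v * g⁻¹) := x.2.2.1
      show v * (g⁻¹ * x.1 * g) = (g⁻¹ * x.1 * g) * v
      calc v * (g⁻¹ * x.1 * g) = g⁻¹ * (g * v * g⁻¹ * x.1) * g := by group
        _ = g⁻¹ * (x.1 * (g * v * g⁻¹)) * g := by rw [h1]
        _ = (g⁻¹ * x.1 * g) * v := by group
    · have := conj_pow (a := g⁻¹) (b := x.1) (i := n)
      simp only [inv_inv] at this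
      rw [this, x.2.2.2]
      have h2 := hdg g⁻¹
      simpa using h2
    · rw [conj_pow, x.2.1]; group
    · have h1 : v * x.1 = x.1 * v := x.2.2.1
      show g * v * g⁻¹ * (g * x.1 * g⁻¹) = (g * x.1 * g⁻¹) * (g * v * g⁻¹)
      calc g * v * g⁻¹ * (g * x.1 * g⁻¹) = g * (v * x.1) * g⁻¹ := by group
        _ = g * (x.1 * v) * g⁻¹ := by rw [h1]
        _ = _ := by group
    · rw [conj_pow, x.2.2.2]; exact hdg g
    · intro x; ext; simp [mul_assoc]
    · intro x; ext; simp [mul_assoc]
  apply dvd_sum_class V _ T hTconj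
  · intro v _
    set C := Subgroup.centralizer ({v} : Set X) with hC
    have hclass := card_class_mul_card_centralizer v
    have hord := ordProj_dvd_of_mul_eq (p := p) hX0 hclass
    set g := (Nat.card C).factorization p with hg
    have hge : g ≤ e :=
      (Nat.factorization_le_iff_dvd Nat.card_pos.ne' hX0).2 (Subgroup.card_subgroup_dvd_card C) p
    have hdC : d ∈ C := by
      rw [hC, Subgroup.mem_centralizer_singleton_iff]
      exact (Subgroup.mem_center_iff.1 hdcen v).symm
    have hTeq : T v = Nat.card {u : C // u ^ (p ^ e) = 1 ∧ u ^ (p ^ a * b) = ⟨d, hdC⟩} := by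
      apply Nat.card_congr
      refine ⟨fun x => ⟨⟨x.1, ?_⟩, ?_, ?_⟩, fun x => ⟨x.1.1, ?_, ?_, ?_⟩, ?_, ?_⟩
      · rw [Subgroup.mem_centralizer_singleton_iff]
        exact x.2.2.1.eq.symm
      · apply Subtype.ext; exact x.2.1
      · apply Subtype.ext
        show x.1 ^ (p ^ a * b) = d
        rw [hnab]; exact x.2.2.2
      · have := congrArg Subtype.val x.2.1
        simpa using this
      · exact (Subgroup.mem_centralizer_singleton_iff.1 x.1.2).symm
      · have := congrArg Subtype.val x.2.2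
        simp only [SubmonoidClass.coe_pow] at this
        exact (congrArg (fun t => (x.1.1 : X) ^ t) hnab.symm).trans this
      · intro x; rfl
      · intro x; rfl
    have hkc := key_count (Y := C) hp e a b hbcop hge ⟨d, hdC⟩ (by
      apply Subtype.ext
      simpa using hdp)
    rw [← hTeq] at hkc
    change p ^ min a e ∣ _
    by_cases hag : a ≤ g
    · rw [min_eq_left hag] at hkc
      rw [min_eq_left (hag.trans hge)]
      exact hkc.trans (dvd_mul_left _ _)
    · have hag' : g ≤ a := by omega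
      rw [min_eq_right hag'] at hkc
      have h5 : p ^ e ∣ (ConjClasses.mk v).carrier.ncard * T v :=
        hord.trans (Nat.mul_dvd_mul_left _ hkc)
      exact (pow_dvd_pow p (min_le_right _ _)).trans h5
  · intro v hv g
    simp only [hV, Finset.mem_filter, Finset.mem_univ, true_and] at hv ⊢
    constructor
    · rw [conj_pow, hv.1]; group
    · rw [conj_pow, hv.2]
      have : c₀ ∈ Subgroup.center X := Subgroup.pow_mem _ hc _
      rw [Subgroup.mem_center_iff.1 this g, mul_inv_cancel_right]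

/-- `gcd(n, |X|)` divides the number of solutions of `x ^ n = c`, for central `c`. -/
theorem gcd_dvd_central {X : Type*} [Group X] [Finite X] (c : X) (hc : c ∈ Subgroup.center X) (n : ℕ) :
    Nat.gcd n (Nat.card X) ∣ Nat.card {x : X // x ^ n = c} := by
  classical
  rcases eq_or_ne n 0 with rfl | hn
  · rw [Nat.gcd_zero_left]
    by_cases hc1 : c = 1
    · subst hc1
      apply dvd_of_eq
      apply Nat.card_congr
      exact ⟨fun x => ⟨x, by simp⟩, fun x => x.1, fun x => rfl, fun x => rfl⟩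
    · have : IsEmpty {x : X // x ^ 0 = c} := ⟨fun x => hc1 (by rw [← x.2, pow_zero])⟩
      rw [Nat.card_of_isEmpty (α := {x : X // x ^ 0 = c})]
      exact dvd_zero _
  · rw [Nat.dvd_iff_prime_pow_dvd_dvd]
    intro p k hp hk
    have hgcd := Nat.gcd_dvd_left n (Nat.card X)
    have hgcd2 := Nat.gcd_dvd_right n (Nat.card X)
    have h1 : k ≤ n.factorization p := (hp.pow_dvd_iff_le_factorization hn).1 (hk.trans hgcd)
    have h2 : k ≤ (Nat.card X).factorization p :=
      (hp.pow_dvd_iff_le_factorization Nat.card_pos.ne').1 (hk.trans hgcd2)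
    exact (pow_dvd_pow p (le_min h1 h2)).trans (main_central c hc hn hp)

/-- Frobenius' theorem for a conjugacy class. -/
theorem gcd_class_dvd {G : Type*} [Group G] [Finite G] (c : G) (n : ℕ) :
    Nat.gcd (Nat.card {y : G // IsConj c y} * n) (Nat.card G) ∣
      Nat.card {x : G // IsConj c (x ^ n)} := by
  classical
  haveI := Fintype.ofFinite G
  set h := Nat.card {y : G // IsConj c y} with hh
  set H := Subgroup.centralizer ({c} : Set G) with hH
  have hcH : c ∈ H := by
    rw [hH, Subgroup.mem_centralizer_singleton_iff]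
  have hcen : (⟨c, hcH⟩ : H) ∈ Subgroup.center H := by
    rw [Subgroup.mem_center_iff]
    intro g
    apply Subtype.ext
    exact Subgroup.mem_centralizer_singleton_iff.1 g.2
  have hclass : h * Nat.card H = Nat.card G := by
    have h1 : h = (ConjClasses.mk c).carrier.ncard := by
      rw [hh, ← Nat.card_coe_set_eq]
      apply Nat.card_congr
      apply Equiv.subtypeEquivRight
      intro y
      simp only [ConjClasses.mem_carrier_iff_mk_eq, ConjClasses.mk_eq_mk_iff_isConj]
      exact ⟨fun h => h.symm, fun h => h.symm⟩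
    rw [h1]
    exact card_class_mul_card_centralizer c
  -- step A
  have hA : Nat.card {x : G // IsConj c (x ^ n)} = h * Nat.card {x : G // x ^ n = c} := by
    let E : {x : G // IsConj c (x ^ n)} ≃ Σ y : {y : G // IsConj c y}, {x : G // x ^ n = y.1} :=
      { toFun := fun x => ⟨⟨x.1 ^ n, x.2⟩, ⟨x.1, rfl⟩⟩
        invFun := fun y => ⟨y.2.1, by rw [y.2.2]; exact y.1.2⟩
        left_inv := fun x => rfl
        right_inv := by
          rintro ⟨⟨y, hy⟩, ⟨x, hx⟩⟩
          have hx' : x ^ n = y := hx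
          subst hx'
          rfl }
    rw [Nat.card_congr E, Nat.card_sigma]
    have hconst : ∀ y : {y : G // IsConj c y},
        Nat.card {x : G // x ^ n = y.1} = Nat.card {x : G // x ^ n = c} := by
      rintro ⟨y, hy⟩
      obtain ⟨g, rfl⟩ := isConj_iff.1 hy
      apply Nat.card_congr
      refine ⟨fun x => ⟨g⁻¹ * x.1 * g, ?_⟩, fun x => ⟨g * x.1 * g⁻¹, ?_⟩, ?_, ?_⟩
      · have := conj_pow (a := g⁻¹) (b := x.1) (i := n)
        simp only [inv_inv] at this
        rw [this, x.2]; group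
      · rw [conj_pow, x.2]
      · intro x; ext; simp [mul_assoc]
      · intro x; ext; simp [mul_assoc]
    rw [Finset.sum_congr rfl (fun y _ => hconst y), Finset.sum_const, smul_eq_mul,
      Finset.card_univ, ← Nat.card_eq_fintype_card]
  -- step B
  have hB : Nat.card {x : G // x ^ n = c} = Nat.card {x : H // x ^ n = ⟨c, hcH⟩} := by
    apply Nat.card_congr
    refine ⟨fun x => ⟨⟨x.1, ?_⟩, ?_⟩, fun x => ⟨x.1.1, ?_⟩, ?_, ?_⟩
    · have h9 : x.1 * x.1 ^ n = x.1 ^ n * x.1 := (Commute.self_pow x.1 n).eq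
      have h10 : x.1 * c = c * x.1 := by
        have h11 := x.2
        calc x.1 * c = x.1 * x.1 ^ n := by rw [h11]
          _ = x.1 ^ n * x.1 := h9
          _ = c * x.1 := by rw [h11]
      exact Subgroup.mem_centralizer_singleton_iff.2 h10
    · apply Subtype.ext; exact x.2
    · have := congrArg Subtype.val x.2
      simpa using this
    · intro x; rfl
    · intro x; rfl
  rw [hA, hB, ← hclass, Nat.gcd_mul_left]
  exact Nat.mul_dvd_mul_left _ (gcd_dvd_central _ hcen n)

end Cfsg.Agent.H20
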