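import Mathlib

/-!
Counting conjugacy classes by commuting pairs: `k(G) * |G| = ∑ g, |C_G(g)|`, and variants.
-/

namespace Cfsg.Agent.H20

open Subgroup

variable {X : Type*} [Group X]

/-- The number of commuting pairs as a sum of centralizer orders. -/
theorem card_conjClasses_mul_card_eq_sum [Fintype X] :
    Nat.card (ConjClasses X) * Nat.card X =
      ∑ g : X, Nat.card (Subgroup.centralizer ({g} : Set X)) := by
  classical
  rw [← card_comm_eq_card_conjClasses_mul_card]
  have e : { p : X × X // Commute p.1 p.2 } ≃ Σ g : X, (Subgroup.centralizer ({g} : Set X)) :=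
    { toFun := fun p => ⟨p.1.1, ⟨p.1.2, by
        rw [Subgroup.mem_centralizer_singleton_iff]; exact p.2.eq.symm⟩⟩
      invFun := fun q => ⟨(q.1, q.2.1), by
        have := q.2.2
        rw [Subgroup.mem_centralizer_singleton_iff] at this
        exact this.symm⟩
      left_inv := fun p => by rfl
      right_inv := fun q => by rfl }
  rw [Nat.card_congr e, Nat.card_sigma]

/-- The cardinality of `K ⊓ C(g)` summed over `g : X` equals the sum over `z : K` of the cardinality
of `C(z)`. -/
theorem sum_card_inf_centralizer [Fintype X] (K : Subgroup X) [Fintype K] :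
    ∑ g : X, Nat.card (K ⊓ Subgroup.centralizer ({g} : Set X) : Subgroup X) =
      ∑ z : K, Nat.card (Subgroup.centralizer ({(z : X)} : Set X)) := by
  classical
  have e : (Σ g : X, (K ⊓ Subgroup.centralizer ({g} : Set X) : Subgroup X)) ≃
      (Σ z : K, (Subgroup.centralizer ({(z : X)} : Set X))) :=
    { toFun := fun q => ⟨⟨q.2.1, q.2.2.1⟩, ⟨q.1, Subgroup.mem_centralizer_singleton_iff.mpr
        (Subgroup.mem_centralizer_singleton_iff.mp q.2.2.2).symm⟩⟩
      invFun := fun q => ⟨q.2.1, ⟨q.1.1, ⟨q.1.2, Subgroup.mem_centralizer_singleton_iff.mpr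
        (Subgroup.mem_centralizer_singleton_iff.mp q.2.2).symm⟩⟩⟩
      left_inv := fun q => by rfl
      right_inv := fun q => by rfl }
  have := Nat.card_congr e
  rw [Nat.card_sigma, Nat.card_sigma] at this
  exact this

/-- Within a subgroup: the count of `Y ⊓ C_X(y)` is the count of `C_Y(y)`. -/
theorem card_inf_centralizer_eq (Y : Subgroup X) (y : Y) :
    Nat.card (Y ⊓ Subgroup.centralizer ({(y : X)} : Set X) : Subgroup X) =
      Nat.card (Subgroup.centralizer ({y} : Set Y)) := by
  classical
  refine Nat.card_congr ?_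
  exact
    { toFun := fun z => ⟨⟨z.1, z.2.1⟩, Subgroup.mem_centralizer_singleton_iff.mpr
        (Subtype.ext (Subgroup.mem_centralizer_singleton_iff.mp z.2.2))⟩
      invFun := fun z => ⟨z.1.1, ⟨z.1.2, Subgroup.mem_centralizer_singleton_iff.mpr
        (congrArg Subtype.val (Subgroup.mem_centralizer_singleton_iff.mp z.2))⟩⟩
      left_inv := fun z => by rfl
      right_inv := fun z => by rfl }

/-- `k(Y) |Y|` as a sum over `Y` inside the big group. -/
theorem card_conjClasses_subgroup_mul_card_eq_sum [Fintype X] (Y : Subgroup X) [Fintype Y] :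
    Nat.card (ConjClasses Y) * Nat.card Y =
      ∑ y : Y, Nat.card (Y ⊓ Subgroup.centralizer ({(y : X)} : Set X) : Subgroup X) := by
  rw [card_conjClasses_mul_card_eq_sum]
  exact Finset.sum_congr rfl (fun y _ => (card_inf_centralizer_eq Y y).symm)

end Cfsg.Agent.H20
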