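import Mathlib
import Cfsg.Agent.Lib.H19.FrobCount
import Cfsg.Agent.Lib.H17.PrimeGraph
import Cfsg.Agent.Lib.H18.Syl

/-! Solvable groups with exactly `n` solutions of `x ^ n = 1` (helper20). -/

set_option autoImplicit false
set_option linter.style.haveILetI false
set_option linter.unusedSectionVars false

namespace Cfsg.Agent.H20

open Cfsg.Agent.H19

universe u

/-- The `p`-part of the number of solutions with a predicate controlled by the `p'`-part. -/
theorem pow_dvd_card_of_pred {G : Type*} [Group G] [Finite G] {p : ℕ} (hp : p.Prime) {n : ℕ}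
    (hn : n ≠ 0) (hpa : p ^ (n.factorization p) ∣ Nat.card G) (Q : G → Prop)
    (hQ : ∀ c u : G, c ^ (ordCompl[p] n) = 1 → u ^ (p ^ (n.factorization p)) = 1 → Commute c u →
      (Q (c * u) ↔ Q c))
    (hQc : ∀ c g : G, Q c → Q (g * c * g⁻¹)) :
    p ^ (n.factorization p) ∣ Nat.card {x : G // x ^ n = 1 ∧ Q x} := by
  classical
  haveI := Fintype.ofFinite G
  have hG0 : Nat.card G ≠ 0 := Nat.card_pos.ne'
  set a := n.factorization p with ha
  set m' := ordCompl[p] n with hm'
  have hcop : m'.Coprime (p ^ a) := (Nat.Coprime.pow_left a (Nat.coprime_ordCompl hp hn)).symm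
  have hmeq : m' * p ^ a = n := by rw [mul_comm]; exact Nat.ordProj_mul_ordCompl_eq_self n p
  set X := Finset.univ.filter (fun c : G => c ^ m' = 1 ∧ Q c) with hX
  have h1 := card_decomp (G := G) hcop Q hQ X (by simp [hX])
  rw [hmeq] at h1
  rw [h1]
  apply dvd_sum_class X _ _ (fun c g => solC_conj _ c g)
  · intro c _
    set C := Subgroup.centralizer ({c} : Set G) with hC
    by_cases hab : a ≤ (Nat.card C).factorization p
    · have h3 : p ^ a ∣ Nat.card C := (hp.pow_dvd_iff_le_factorization Nat.card_pos.ne').2 hab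
      rw [solC_eq_sol_centralizer]
      exact (pow_dvd_sol hp h3).trans (dvd_mul_left _ _)
    · have h3 := card_class_mul_card_centralizer c
      have h4 := ordProj_dvd_of_mul_eq (p := p) hG0 h3
      have h5 : ordProj[p] (Nat.card G) ∣ _ := h4.trans (Nat.mul_dvd_mul_left _
        (ordProj_dvd_sol hp _ C rfl))
      refine ((hp.pow_dvd_iff_le_factorization hG0).1 hpa |> pow_dvd_pow p).trans (h5.trans ?_)
      apply Nat.mul_dvd_mul_left
      rw [solC_eq_sol_centralizer, sol_pow_eq_sol_ordProj hp (not_le.1 hab).le]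
  · intro c hc g
    simp only [hX, Finset.mem_filter, Finset.mem_univ, true_and] at hc ⊢
    exact ⟨by rw [conj_pow, hc.1]; group, hQc c g hc.2⟩

/-- A subgroup of order `n`, when `x ^ n = 1` has exactly `n` solutions, is the solution set. -/
theorem carrier_eq_of_card {G : Type*} [Group G] [Finite G] {n : ℕ}
    (hcount : Nat.card {x : G // x ^ n = 1} = n) (K : Subgroup G) (hK : Nat.card K = n) :
    (K : Set G) = {x | x ^ n = 1} := by
  apply Set.eq_of_subset_of_ncard_le
  · intro x hx
    have h1 : (⟨x, hx⟩ : K) ^ Nat.card K = 1 := pow_card_eq_one'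
    rw [hK] at h1
    have h2 := congrArg Subtype.val h1
    simpa using h2
  · have h1 : ({x | x ^ n = 1} : Set G).ncard = n := hcount
    have h2 : (K : Set G).ncard = n := by rw [← hK]; rfl
    rw [h1, h2]
  · exact Set.toFinite _

theorem normal_of_carrier {G : Type*} [Group G] {n : ℕ} (K : Subgroup G)
    (hK : (K : Set G) = {x | x ^ n = 1}) : K.Normal := by
  refine ⟨fun x hx g => ?_⟩
  have h1 : x ∈ (K : Set G) := hx
  rw [hK] at h1
  have h2 : g * x * g⁻¹ ∈ (K : Set G) := by
    rw [hK]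
    show (g * x * g⁻¹) ^ n = 1
    rw [conj_pow, show x ^ n = 1 from h1]
    group
  exact h2

/-- **Solvable Frobenius conjecture.** -/
theorem exact_count : ∀ (N : ℕ) (G : Type u) [Group G] [Finite G] [Group.IsSolvable G] (n : ℕ),
    Nat.card G = N → n ∣ Nat.card G → Nat.card {x : G // x ^ n = 1} = n →
    ∃ H : Subgroup G, H.Normal ∧ (H : Set G) = {x : G | x ^ n = 1} := by
  intro N
  induction N using Nat.strong_induction_on with
  | _ N ih =>
  intro G _ _ _ n hN hn hcount
  classical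
  haveI := Fintype.ofFinite G
  have hn0 : n ≠ 0 := by
    rintro rfl
    rw [zero_dvd_iff] at hn
    exact (Nat.card_pos (α := G)).ne' hn
  -- trivial group
  by_cases hnt : Nontrivial G
  swap
  · rw [not_nontrivial_iff_subsingleton] at hnt
    have h1 : n = 1 := by
      rw [Nat.card_of_subsingleton (1 : G)] at hn
      exact Nat.dvd_one.mp hn
    refine ⟨⊤, inferInstance, ?_⟩
    ext x
    simp [Subsingleton.elim x 1]
  obtain ⟨M, hMn, hMp⟩ := H17.exists_normal_prime_index G
  haveI := hMn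
  set q := M.index with hq
  have hqp : q.Prime := hMp
  haveI : Fact q.Prime := ⟨hqp⟩
  have hcardG : Nat.card M * q = Nat.card G := Subgroup.card_mul_index M
  have hMlt : Nat.card M < N := by
    rw [← hN, ← hcardG]
    exact lt_mul_of_one_lt_right Nat.card_pos hqp.one_lt
  -- transfer a normal subgroup of `M`
  have transfer : ∀ (m : ℕ), m ∣ Nat.card M → Nat.card {x : M // x ^ m = 1} = m →
      ∃ H : Subgroup G, Nat.card H = m ∧ (H : Set G) = {x : G | x ∈ M ∧ x ^ m = 1} := by
    intro m hm hc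
    obtain ⟨H₀, -, hH₀⟩ := ih _ hMlt M m rfl hm hc
    refine ⟨H₀.map M.subtype, ?_, ?_⟩
    · rw [Subgroup.card_map_of_injective M.subtype_injective, ← hc]
      apply Nat.card_congr
      apply Equiv.subtypeEquivRight
      intro x
      have : x ∈ (H₀ : Set M) ↔ x ∈ ({x : M | x ^ m = 1} : Set M) := by rw [hH₀]
      exact this
    · ext x
      constructor
      · rintro ⟨y, hy, rfl⟩
        have h1 : y ∈ (H₀ : Set M) := hy
        rw [hH₀] at h1
        refine ⟨y.2, ?_⟩
        have h2 := congrArg Subtype.val (show y ^ m = 1 from h1)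
        simpa using h2
      · rintro ⟨hx, hx2⟩
        refine ⟨⟨x, hx⟩, ?_, rfl⟩
        have h1 : (⟨x, hx⟩ : M) ∈ (H₀ : Set M) := by
          rw [hH₀]
          apply Subtype.ext
          simpa using hx2
        exact h1
  by_cases hnM : n ∣ Nat.card M
  · -- case 1
    have hdvd := dvd_sol (G := M) hnM
    have hle : sol M n ≤ n := by
      refine le_trans (Nat.card_le_card_of_injective (fun x : {x : M // x ^ n = 1} => (⟨x.1.1, by
        have h2 := congrArg Subtype.val x.2
        simpa using h2⟩ : {x : G // x ^ n = 1})) ?_) hcount.le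
      intro a b hab
      have h1 : a.1.1 = b.1.1 := by simpa using hab
      exact Subtype.ext (Subtype.ext h1)
    have hpos : 0 < sol M n := by
      haveI : Nonempty {x : M // x ^ n = 1} := ⟨⟨1, one_pow n⟩⟩
      exact Nat.card_pos
    have heq : sol M n = n := le_antisymm hle (Nat.le_of_dvd hpos hdvd)
    obtain ⟨H, hHc, -⟩ := transfer n hnM heq
    have hcar := carrier_eq_of_card hcount H hHc
    exact ⟨H, normal_of_carrier H hcar, hcar⟩
  -- case 2
  have hqn : q ∣ n := by
    by_contra hcon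
    have h1 : Nat.Coprime n q := ((Nat.Prime.coprime_iff_not_dvd hqp).mpr hcon).symm
    rw [← hcardG] at hn
    exact hnM (h1.dvd_of_dvd_mul_right hn)
  obtain ⟨m, rfl⟩ := hqn
  have hm0 : m ≠ 0 := by
    rintro rfl
    exact hn0 (by simp)
  have hmM : m ∣ Nat.card M := by
    rw [← hcardG, mul_comm] at hn
    exact Nat.dvd_of_mul_dvd_mul_right hqp.pos hn
  obtain ⟨z, hz⟩ := hmM
  have hqz : ¬ q ∣ z := by
    rintro ⟨w, rfl⟩
    apply hnM
    rw [hz]
    exact ⟨w, by ring⟩
  have hqzc : Nat.Coprime q z := (Nat.Prime.coprime_iff_not_dvd hqp).mpr hqz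
  have hcardG' : Nat.card G = q * m * z := by rw [← hcardG, hz]; ring
  -- facts
  have F1 : ∀ x : G, x ∈ M → x ^ (q * m) = 1 → x ^ m = 1 := by
    intro x hx hx2
    have h1 : orderOf x ∣ q * m := orderOf_dvd_of_pow_eq_one hx2
    have h2 : orderOf x ∣ m * z := by rw [← hz]; exact Subgroup.orderOf_dvd_natCard M hx
    have h3 := Nat.dvd_gcd h1 h2
    rw [mul_comm q m, Nat.gcd_mul_left, hqzc, mul_one] at h3
    exact orderOf_dvd_iff_pow_eq_one.1 h3
  have Fq : ∀ (x : G) (j : ℕ), x ^ (q ^ j) = 1 → x ^ (q * m) = 1 := by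
    intro x j hx
    obtain ⟨i, -, hi⟩ := (Nat.dvd_prime_pow hqp).1 (orderOf_dvd_of_pow_eq_one hx)
    have h1 : orderOf x ∣ q * m * z := by rw [← hcardG']; exact orderOf_dvd_natCard x
    have h2 : Nat.Coprime (orderOf x) z := by rw [hi]; exact hqzc.pow_left i
    exact orderOf_dvd_iff_pow_eq_one.1 (h2.dvd_of_dvd_mul_right h1)
  have F3 : ∀ (x : G) (j : ℕ), x ∈ M → x ^ (q ^ j) = 1 → x ^ m = 1 := by
    intro x j hxM hx
    obtain ⟨i, -, hi⟩ := (Nat.dvd_prime_pow hqp).1 (orderOf_dvd_of_pow_eq_one hx)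
    have h1 : orderOf x ∣ m * z := by rw [← hz]; exact Subgroup.orderOf_dvd_natCard M hxM
    have h2 : Nat.Coprime (orderOf x) z := by rw [hi]; exact hqzc.pow_left i
    exact orderOf_dvd_iff_pow_eq_one.1 (h2.dvd_of_dvd_mul_right h1)
  -- the quotient
  let π : G →* G ⧸ M := QuotientGroup.mk' M
  have hπ1 : ∀ x : G, π x = 1 ↔ x ∈ M := fun x => QuotientGroup.eq_one_iff x
  have hπs : Function.Surjective π := QuotientGroup.mk'_surjective M
  have hcardQ : Nat.card (G ⧸ M) = q := rfl
  haveI : IsCyclic (G ⧸ M) := isCyclic_of_prime_card hcardQ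
  have hQcomm : ∀ a b : G ⧸ M, a * b = b * a :=
    (IsCyclic.isMulCommutative (α := G ⧸ M)).is_comm.comm
  have hpowq : ∀ y : G ⧸ M, y ^ q = 1 := fun y => by
    have : y ^ Nat.card (G ⧸ M) = 1 := pow_card_eq_one'
    rwa [hcardQ] at this
  let A : G ⧸ M → ℕ := fun y => Nat.card {x : G // x ^ (q * m) = 1 ∧ π x = y}
  have hsum : q * m = ∑ y : G ⧸ M, A y := by
    have hE : {x : G // x ^ (q * m) = 1} ≃ Σ y : G ⧸ M, {x : G // x ^ (q * m) = 1 ∧ π x = y} :=
      { toFun := fun x => ⟨π x.1, ⟨x.1, x.2, rfl⟩⟩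
        invFun := fun y => ⟨y.2.1, y.2.2.1⟩
        left_inv := fun x => rfl
        right_inv := by
          rintro ⟨y, ⟨x, hx, hxy⟩⟩
          subst hxy
          rfl }
    rw [← Nat.card_sigma, ← Nat.card_congr hE, hcount]
  -- the identity coset
  have hA1 : A 1 = sol M m := by
    apply Nat.card_congr
    refine ⟨fun x => ⟨⟨x.1, (hπ1 _).1 x.2.2⟩, ?_⟩, fun x => ⟨x.1.1, ?_, ?_⟩, ?_, ?_⟩
    · apply Subtype.ext
      exact F1 _ ((hπ1 _).1 x.2.2) x.2.1
    · have h2 := congrArg Subtype.val x.2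
      simp only [SubmonoidClass.coe_pow, OneMemClass.coe_one] at h2
      rw [mul_comm, pow_mul, h2, one_pow]
    · exact (hπ1 _).2 x.1.2
    · intro x; rfl
    · intro x; rfl
  -- Sylow subgroup not in `M`
  let T : Sylow q G := default
  have hTM : ¬ (T : Subgroup G) ≤ M := by
    intro h
    apply T.not_dvd_index
    have h1 := Subgroup.index_dvd_of_le h
    exact h1
  obtain ⟨u, huT, huM⟩ := SetLike.not_le_iff_exists.1 hTM
  have hTpow : ∀ x ∈ (T : Subgroup G), ∃ j : ℕ, x ^ (q ^ j) = 1 := by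
    intro x hx
    obtain ⟨j, hj⟩ := T.isPGroup' ⟨x, hx⟩
    refine ⟨j, ?_⟩
    have := congrArg Subtype.val hj
    simpa using this
  set y₀ := π u with hy₀
  have hy₀1 : y₀ ≠ 1 := fun h => huM ((hπ1 u).1 h)
  -- equality of cosets
  have hAle : ∀ y z : G ⧸ M, y ≠ 1 → z ≠ 1 → A y ≤ A z := by
    intro y z hy hz'
    -- find the exponent
    have hgen : Subgroup.zpowers y = ⊤ := by
      have h1 : Nat.card (Subgroup.zpowers y) ∣ q := by
        rw [← hcardQ]; exact Subgroup.card_subgroup_dvd_card _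
      rcases (Nat.dvd_prime hqp).1 h1 with h2 | h2
      · exfalso
        apply hy
        have h3 : Nat.card (Subgroup.zpowers y) = orderOf y := Nat.card_zpowers y
        rw [h3] at h2
        exact orderOf_eq_one_iff.1 h2
      · exact (Subgroup.card_eq_iff_eq_top _).1 (by rw [h2, hcardQ])
    have hzmem : z ∈ Submonoid.powers y := by
      rw [mem_powers_iff_mem_zpowers, hgen]; trivial
    obtain ⟨i, hi⟩ := hzmem
    simp only at hi
    have hiq : ¬ q ∣ i := by
      rintro ⟨w, rfl⟩
      apply hz'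
      rw [← hi, pow_mul, hpowq, one_pow]
    have hG0 : Nat.card G ≠ 0 := Nat.card_pos.ne'
    set r := ordCompl[q] (Nat.card G) with hr
    have hqr : Nat.Coprime q r := Nat.coprime_ordCompl hqp hG0
    obtain ⟨k, hk1, hk2⟩ := Nat.chineseRemainder hqr i 1
    have hkq : Nat.Coprime k q := by
      rw [Nat.Coprime, Nat.ModEq.gcd_eq hk1]
      exact ((Nat.Prime.coprime_iff_not_dvd hqp).mpr hiq).symm
    have hkr : Nat.Coprime k r := by
      rw [Nat.Coprime, Nat.ModEq.gcd_eq hk2]
      exact Nat.gcd_one_left r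
    have hkG : Nat.Coprime k (Nat.card G) := by
      rw [← Nat.ordProj_mul_ordCompl_eq_self (Nat.card G) q]
      exact Nat.Coprime.mul_right (hkq.pow_right _) hkr
    have hinj : Function.Injective (fun x : G => x ^ k) := (powCoprime hkG.symm).injective
    apply Nat.card_le_card_of_injective
      (fun x : {x : G // x ^ (q * m) = 1 ∧ π x = y} =>
        (⟨x.1 ^ k, ?_, ?_⟩ : {x : G // x ^ (q * m) = 1 ∧ π x = z}))
    · intro a b hab
      exact Subtype.ext (hinj (congrArg Subtype.val hab))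
    · rw [pow_right_comm, x.2.1, one_pow]
    · rw [map_pow, x.2.2, ← hi]
      have hoy : y ^ q = 1 := hpowq y
      exact pow_eq_of_modEq hoy hk1
  have hAeq : ∀ y : G ⧸ M, y ≠ 1 → A y = A y₀ := fun y hy =>
    le_antisymm (hAle _ _ hy hy₀1) (hAle _ _ hy₀1 hy)
  -- sum formula
  have hsum2 : q * m = sol M m + (q - 1) * A y₀ := by
    rw [hsum, ← Finset.add_sum_erase Finset.univ A (Finset.mem_univ (1 : G ⧸ M)), hA1]
    congr 1
    rw [Finset.sum_congr rfl (fun y hy => hAeq y (Finset.ne_of_mem_erase hy)), Finset.sum_const,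
      smul_eq_mul, Finset.card_erase_of_mem (Finset.mem_univ _), Finset.card_univ,
      ← Nat.card_eq_fintype_card, hcardQ]
  have hmsol : m ∣ sol M m := dvd_sol (G := M) ⟨z, hz⟩
  have hq1 : 1 ≤ q := hqp.one_lt.le
  -- divisibility
  have hA0 : m ∣ A y₀ := by
    rw [Nat.dvd_iff_prime_pow_dvd_dvd]
    intro p k hp hk
    by_cases hpq : p = q
    · rw [hpq] at hk ⊢
      have h1 : m ∣ (q - 1) * A y₀ := by
        have h2 : m ∣ q * m := dvd_mul_left _ _
        rw [hsum2] at h2
        exact (Nat.dvd_add_right hmsol).1 h2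
      have h2 : Nat.Coprime (q ^ k) (q - 1) := by
        apply Nat.Coprime.pow_left
        exact (Nat.coprime_self_sub_right hq1).2 (Nat.coprime_one_right q)
      exact h2.dvd_of_dvd_mul_left (hk.trans h1)
    · have hpa : p ^ ((q * m).factorization p) ∣ Nat.card G :=
        (Nat.ordProj_dvd (q * m) p).trans hn
      have h1 := pow_dvd_card_of_pred hp hn0 hpa (fun x => π x = y₀) ?_ ?_
      · have h2 : k ≤ (q * m).factorization p :=
          (hp.pow_dvd_iff_le_factorization hn0).1 (hk.trans (dvd_mul_left _ _))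
        exact (pow_dvd_pow p h2).trans h1
      · intro c v hc hv hcv
        have h3 : π v = 1 := by
          have h4 : (π v) ^ (p ^ (q * m).factorization p) = 1 := by rw [← map_pow, hv, map_one]
          have h5 : orderOf (π v) ∣ p ^ (q * m).factorization p := orderOf_dvd_of_pow_eq_one h4
          have h6 : orderOf (π v) ∣ q := orderOf_dvd_of_pow_eq_one (hpowq _)
          have h7 : Nat.Coprime (p ^ (q * m).factorization p) q :=
            ((Nat.coprime_primes hp hqp).2 hpq).pow_left _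
          exact orderOf_eq_one_iff.1 (Nat.eq_one_of_dvd_coprimes h7 h5 h6)
        rw [map_mul, h3, mul_one]
      · intro c g hc
        rw [map_mul, map_mul, map_inv, hQcomm (π g), mul_inv_cancel_right]
        exact hc
  have hApos : 0 < A y₀ := by
    haveI : Nonempty {x : G // x ^ (q * m) = 1 ∧ π x = y₀} := by
      obtain ⟨j, hj⟩ := hTpow u huT
      exact ⟨⟨u, Fq u j hj, rfl⟩⟩
    exact Nat.card_pos
  have hAm : m ≤ A y₀ := Nat.le_of_dvd hApos hA0
  have hsolpos : 0 < sol M m := by
    haveI : Nonempty {x : M // x ^ m = 1} := ⟨⟨1, one_pow m⟩⟩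
    exact Nat.card_pos
  have hsolm : sol M m = m := by
    have h1 : m ≤ sol M m := Nat.le_of_dvd hsolpos hmsol
    have h2 : (q - 1) * m ≤ (q - 1) * A y₀ := Nat.mul_le_mul_left _ hAm
    have h3 : q * m = m + (q - 1) * m := by
      have h4 : ∀ a : ℕ, 1 ≤ a → a * m = m + (a - 1) * m := by
        intro a ha
        obtain ⟨b, rfl⟩ := Nat.exists_eq_add_of_le ha
        simp only [Nat.add_sub_cancel_left]
        ring
      exact h4 q hq1
    omega
  obtain ⟨H, hHc, hHs⟩ := transfer m ⟨z, hz⟩ hsolm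
  have hHmem : ∀ x, x ∈ H ↔ x ∈ M ∧ x ^ m = 1 := by
    intro x
    have : x ∈ (H : Set G) ↔ x ∈ ({x : G | x ∈ M ∧ x ^ m = 1} : Set G) := by rw [hHs]
    exact this
  haveI hHn : H.Normal := by
    refine ⟨fun x hx g => ?_⟩
    rw [hHmem] at hx ⊢
    refine ⟨hMn.conj_mem x hx.1 g, ?_⟩
    rw [conj_pow, hx.2]; group
  -- the product
  have hinf : (T : Subgroup G) ⊓ H = (T : Subgroup G) ⊓ M := by
    ext x
    simp only [Subgroup.mem_inf]
    constructor
    · rintro ⟨h1, h2⟩
      exact ⟨h1, ((hHmem x).1 h2).1⟩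
    · rintro ⟨h1, h2⟩
      obtain ⟨j, hj⟩ := hTpow x h1
      exact ⟨h1, (hHmem x).2 ⟨h2, F3 x j h2 hj⟩⟩
  have hrel : M.relIndex (T : Subgroup G) = q := by
    have h1 : M.relIndex (T : Subgroup G) ∣ q := Subgroup.relIndex_dvd_index_of_normal M _
    rcases (Nat.dvd_prime hqp).1 h1 with h2 | h2
    · exact absurd (Subgroup.relIndex_eq_one.1 h2) hTM
    · exact h2
  have hcard1 := H18.card_inf_mul_relIndex M (T : Subgroup G)
  rw [hrel, inf_comm] at hcard1
  have hcard2 := H18.card_sup_mul_card_inf (T : Subgroup G) H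
  rw [hinf, ← hcard1, hHc] at hcard2
  have hKc : Nat.card ((T : Subgroup G) ⊔ H : Subgroup G) = q * m := by
    have hpos : 0 < Nat.card ((T : Subgroup G) ⊓ M : Subgroup G) := Nat.card_pos
    apply Nat.eq_of_mul_eq_mul_right hpos
    rw [hcard2]; ring
  have hcar := carrier_eq_of_card hcount _ hKc
  exact ⟨_, normal_of_carrier _ hcar, hcar⟩

end Cfsg.Agent.H20
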