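import Mathlib

/-! Combinatorial lemmas for the Hall-Wielandt transfer theorem (namespace `Cfsg.Agent.H20`). -/

set_option autoImplicit false
set_option linter.unusedVariables false
set_option linter.style.haveILetI false
set_option linter.unusedSectionVars false

namespace Cfsg.Agent.H20

open Finset

variable {A : Type*} [CommGroup A]

/-- A binomial identity for a two-index difference table. -/
theorem prod_choose_identity (a : ℕ → ℕ → A) (h : ∀ k i, a k (i + 1) = a k i * a (k + 1) i) :
    ∀ n k, ∏ i ∈ range n, a k i = ∏ j ∈ range n, (a (k + j) 0) ^ (n.choose (j + 1)) := by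
  intro n
  induction n with
  | zero => intro k; simp
  | succ n ih =>
    intro k
    have h1 : ∏ i ∈ range (n + 1), a k i
        = (∏ i ∈ range n, a k i) * (∏ i ∈ range n, a (k + 1) i) * a k 0 := by
      rw [prod_range_succ']
      simp only [h]
      rw [prod_mul_distrib]
    rw [h1, ih k, ih (k + 1)]
    -- rewrite the first product
    have h2 : ∏ j ∈ range n, (a (k + j) 0) ^ (n.choose (j + 1))
        = (∏ j ∈ range n, (a (k + (j + 1)) 0) ^ (n.choose (j + 2))) * (a k 0) ^ n := by
      have h3 := prod_range_succ (fun j => (a (k + j) 0) ^ (n.choose (j + 1))) n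
      have h4 := prod_range_succ' (fun j => (a (k + j) 0) ^ (n.choose (j + 1))) n
      simp only [Nat.choose_succ_self, pow_zero, mul_one, add_zero, Nat.choose_one_right, zero_add] at h3 h4
      rw [← h3, h4]
    have h5 : ∏ j ∈ range (n + 1), (a (k + j) 0) ^ ((n + 1).choose (j + 1))
        = (∏ j ∈ range n, (a (k + (j + 1)) 0) ^ ((n + 1).choose (j + 2))) * (a k 0) ^ (n + 1) := by
      have h4 := prod_range_succ' (fun j => (a (k + j) 0) ^ ((n + 1).choose (j + 1))) n
      simp only [add_zero, Nat.choose_one_right, zero_add] at h4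
      exact h4
    have h6 : ∏ j ∈ range n, (a (k + (j + 1)) 0) ^ ((n + 1).choose (j + 2))
        = (∏ j ∈ range n, (a (k + (j + 1)) 0) ^ (n.choose (j + 1)))
          * ∏ j ∈ range n, (a (k + (j + 1)) 0) ^ (n.choose (j + 2)) := by
      rw [← prod_mul_distrib]
      apply prod_congr rfl
      intro j _
      rw [← pow_add, Nat.choose_succ_succ' n (j + 1)]
    have h7 : ∏ j ∈ range n, (a (k + 1 + j) 0) ^ (n.choose (j + 1))
        = ∏ j ∈ range n, (a (k + (j + 1)) 0) ^ (n.choose (j + 1)) := by
      apply prod_congr rfl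
      intro j _
      rw [show k + 1 + j = k + (j + 1) by omega]
    rw [h2, h5, h6, h7, pow_succ]
    generalize (∏ j ∈ range n, (a (k + (j + 1)) 0) ^ (n.choose (j + 1))) = X
    generalize (∏ j ∈ range n, (a (k + (j + 1)) 0) ^ (n.choose (j + 2))) = Y
    generalize a k 0 = Z
    simp only [mul_assoc, mul_comm, mul_left_comm]

/-- The norm computation: if the `(p-1)`-fold iterated commutator of `e` with `φ` vanishes, then the
norm of `e` is killed by any homomorphism into an abelian group of exponent `p`. -/
theorem norm_engel {D : Type*} [Group D] {p : ℕ} (hp : p.Prime) (hA : ∀ a : A, a ^ p = 1) (θ : D →* A)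
    (φ : D →* D) (e : D) (h : (fun y => y⁻¹ * φ y)^[p - 1] e = 1) :
    ∏ i ∈ range p, θ (φ^[i] e) = 1 := by
  set c : ℕ → D := fun k => (fun y => y⁻¹ * φ y)^[k] e with hc
  have hc1 : ∀ k, φ (c k) = c k * c (k + 1) := by
    intro k
    simp only [hc]
    rw [Function.iterate_succ_apply']
    group
  let a : ℕ → ℕ → A := fun k i => θ (φ^[i] (c k))
  have hrec : ∀ k i, a k (i + 1) = a k i * a (k + 1) i := by
    intro k i
    simp only [a]
    rw [Function.iterate_succ_apply, hc1, iterate_map_mul, map_mul]
  have key := prod_choose_identity a hrec p 0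
  have h0 : c 0 = e := rfl
  have e1 : ∏ i ∈ range p, θ (φ^[i] e) = ∏ i ∈ range p, a 0 i := by
    apply prod_congr rfl
    intro i _
    simp only [a, h0]
  rw [e1, key]
  apply prod_eq_one
  intro j hj
  have hj' : j < p := mem_range.1 hj
  by_cases hjp : j + 1 = p
  · have hj2 : j = p - 1 := by omega
    have : c j = 1 := by rw [hj2]; exact h
    simp [a, this]
  · have hd : p ∣ p.choose (j + 1) := hp.dvd_choose_self (by omega) (by omega)
    obtain ⟨m, hm⟩ := hd
    rw [hm, pow_mul, hA, one_pow]

/-- Products over a finite set with a fixed-point-free permutation of prime period. -/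
theorem prod_eq_one_of_cycles {α : Type*} [DecidableEq α] {p : ℕ} (hp : p.Prime) (σ : α → α) (f : α → A) :
    ∀ (n : ℕ) (X : Finset α), X.card = n → (∀ c ∈ X, σ c ∈ X) → (∀ c ∈ X, σ^[p] c = c) → (∀ c ∈ X, σ c ≠ c) →
      (∀ c ∈ X, ∏ i ∈ range p, f (σ^[i] c) = 1) → ∏ c ∈ X, f c = 1 := by
  intro n
  induction n using Nat.strong_induction_on with
  | _ n ih =>
  intro X hn hX hper hfix hf
  rcases X.eq_empty_or_nonempty with rfl | ⟨c, hc⟩
  · simp
  have hiter : ∀ (i : ℕ) (x : α), x ∈ X → σ^[i] x ∈ X := by
    intro i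
    induction i with
    | zero => intro x hx; exact hx
    | succ i ih2 =>
      intro x hx
      rw [Function.iterate_succ_apply]
      exact ih2 _ (hX x hx)
  let C : Finset α := (range p).image (fun i => σ^[i] c)
  have hCX : C ⊆ X := by
    intro x hx
    obtain ⟨i, _, rfl⟩ := mem_image.1 hx
    exact hiter i c hc
  have hCall : ∀ i : ℕ, σ^[i] c ∈ C := by
    intro i
    have hmod : σ^[i] c = σ^[i % p] c := by
      have hper' : Function.IsPeriodicPt σ p c := hper c hc
      exact (hper'.iterate_mod_apply i).symm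
    rw [hmod]
    exact mem_image.2 ⟨i % p, mem_range.2 (Nat.mod_lt _ hp.pos), rfl⟩
  have hinj : Set.InjOn (fun i => σ^[i] c) (range p : Set ℕ) := by
    have key : ∀ i j : ℕ, i < j → j < p → σ^[i] c ≠ σ^[j] c := by
      intro i j hij hjp he
      have h1 : σ^[p - i] (σ^[i] c) = c := by
        rw [← Function.iterate_add_apply, Nat.sub_add_cancel (by omega)]
        exact hper c hc
      have h2 : σ^[p - i] (σ^[j] c) = σ^[j - i] c := by
        rw [← Function.iterate_add_apply]
        have : p - i + j = (j - i) + p := by omega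
        rw [this, Function.iterate_add_apply, hper c hc]
      rw [he, h2] at h1
      have hd : Function.IsPeriodicPt σ (j - i) c := h1
      have hd2 : Function.IsPeriodicPt σ p c := hper c hc
      have hg := hd.gcd hd2
      have hg1 : Nat.gcd (j - i) p = 1 := by
        apply Nat.Coprime.symm
        rw [hp.coprime_iff_not_dvd]
        intro hdv
        have := Nat.le_of_dvd (by omega) hdv
        omega
      rw [hg1] at hg
      exact hfix c hc hg
    intro i hi j hj he
    have hi' : i < p := by simpa using hi
    have hj' : j < p := by simpa using hj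
    by_contra hne
    rcases lt_or_gt_of_ne hne with hlt | hlt
    · exact key i j hlt hj' he
    · exact key j i hlt hi' he.symm
  have hprodC : ∏ x ∈ C, f x = 1 := by
    rw [prod_image hinj]
    exact hf c hc
  have hcC : c ∈ C := hCall 0
  have hX' : X \ C ⊂ X := by
    apply ssubset_of_subset_of_ne sdiff_subset
    intro e
    have : c ∈ X \ C := by rw [e]; exact hc
    exact (mem_sdiff.1 this).2 hcC
  have hlt : (X \ C).card < n := by
    rw [← hn]; exact card_lt_card hX'
  have hprod := ih _ hlt (X \ C) rfl ?_ ?_ ?_ ?_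
  · rw [← prod_sdiff hCX, hprod, hprodC, mul_one]
  · intro x hx
    obtain ⟨hxX, hxC⟩ := mem_sdiff.1 hx
    refine mem_sdiff.2 ⟨hX x hxX, fun hC => hxC ?_⟩
    obtain ⟨i, _, hi⟩ := mem_image.1 hC
    have hp1 : σ^[p - 1] (σ x) = x := by
      rw [← Function.iterate_succ_apply, Nat.succ_eq_add_one, Nat.sub_add_cancel hp.pos]
      exact hper x hxX
    rw [← hp1]
    rw [← hi, ← Function.iterate_add_apply]
    exact hCall _
  · intro x hx; exact hper x (mem_sdiff.1 hx).1
  · intro x hx; exact hfix x (mem_sdiff.1 hx).1
  · intro x hx; exact hf x (mem_sdiff.1 hx).1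

end Cfsg.Agent.H20
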