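import Mathlib
import Cfsg.Prelude.Def_Transfer
import Cfsg.Agent.Lib.H20.HallWielandt1
import Cfsg.Agent.Lib.H20.Basic

/-! Transfer computations for the Hall-Wielandt theorem (namespace `Cfsg.Agent.H20`). -/

set_option autoImplicit false
set_option linter.unusedVariables false
set_option linter.style.haveILetI false
set_option linter.unusedSectionVars false

namespace Cfsg.Agent.H20

open Finset MulAction Function
open Cfsg

variable {G : Type*} [Group G] {A : Type*} [CommGroup A]

/-- Extension by one of a homomorphism on a subgroup. -/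
noncomputable def extOne (P : Subgroup G) (l : P →* A) (g : G) : A := by
  classical exact if h : g ∈ P then l ⟨g, h⟩ else 1

theorem extOne_of_mem {P : Subgroup G} (l : P →* A) {g : G} (h : g ∈ P) : extOne P l g = l ⟨g, h⟩ := by
  simp [extOne, h]

theorem extOne_of_not_mem {P : Subgroup G} (l : P →* A) {g : G} (h : g ∉ P) : extOne P l g = 1 := by
  simp [extOne, h]

theorem extOne_mul {P : Subgroup G} (l : P →* A) {a b : G} (ha : a ∈ P) (hb : b ∈ P) :
    extOne P l (a * b) = extOne P l a * extOne P l b := by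
  rw [extOne_of_mem l ha, extOne_of_mem l hb, extOne_of_mem l (P.mul_mem ha hb), ← map_mul]
  rfl

theorem extOne_pow {P : Subgroup G} (l : P →* A) {a : G} (ha : a ∈ P) (n : ℕ) :
    extOne P l (a ^ n) = extOne P l a ^ n := by
  rw [extOne_of_mem l ha, extOne_of_mem l (P.pow_mem ha n), ← map_pow]
  rfl

theorem extOne_conj {P : Subgroup G} (l : P →* A) {u : G} (hu : u ∈ P) (g : G) :
    extOne P l (u⁻¹ * g * u) = extOne P l g := by
  by_cases hg : g ∈ P
  · have h1 : u⁻¹ * g * u ∈ P := P.mul_mem (P.mul_mem (P.inv_mem hu) hg) hu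
    rw [extOne_of_mem l h1, extOne_of_mem l hg]
    have e : (⟨u⁻¹ * g * u, h1⟩ : P) = (⟨u, hu⟩ : P)⁻¹ * ⟨g, hg⟩ * ⟨u, hu⟩ := rfl
    rw [e, map_mul, map_mul, map_inv]
    simp [mul_comm]
  · have h1 : u⁻¹ * g * u ∉ P := by
      intro h
      apply hg
      have : g = u * (u⁻¹ * g * u) * u⁻¹ := by group
      rw [this]
      exact P.mul_mem (P.mul_mem hu h) (P.inv_mem hu)
    rw [extOne_of_not_mem l h1, extOne_of_not_mem l hg]

/-- Representatives do not matter. -/
theorem extOne_out {P : Subgroup G} (l : P →* A) (y t : G) (c : G ⧸ P) (ht : (QuotientGroup.mk t : G ⧸ P) = c) :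
    extOne P l (t⁻¹ * y * t) = extOne P l (c.out⁻¹ * y * c.out) := by
  have h1 : t⁻¹ * c.out ∈ P := by
    rw [← QuotientGroup.eq, ht, QuotientGroup.out_eq']
  have h2 := extOne_conj l h1 (t⁻¹ * y * t)
  rw [← h2]
  congr 1
  group

section transfer

variable [Finite G] (P : Subgroup G)

open Classical in
/-- The cosets fixed by `y`. -/
noncomputable def fixCosets (y : G) : Finset (G ⧸ P) :=
  haveI := Fintype.ofFinite (G ⧸ P)
  Finset.univ.filter (fun c => y • c = c)

theorem mem_fixCosets {y : G} {c : G ⧸ P} : c ∈ fixCosets P y ↔ y • c = c := by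
  classical
  simp [fixCosets]

theorem card_fixCosets_modEq {p : ℕ} [Fact p.Prime] (hP : IsPGroup p P) {y : G} (hy : y ∈ P) :
    (fixCosets P y).card ≡ P.index [MOD p] := by
  have hz : IsPGroup p (Subgroup.zpowers y) :=
    IsPGroup.to_le hP (by rwa [Subgroup.zpowers_le])
  have h1 := hz.card_modEq_card_fixedPoints (G ⧸ P)
  have h2 : Nat.card (fixedPoints (Subgroup.zpowers y) (G ⧸ P)) = (fixCosets P y).card := by
    have h3 : (fixedPoints (Subgroup.zpowers y) (G ⧸ P)) = ((fixCosets P y : Finset (G ⧸ P)) : Set (G ⧸ P)) := by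
      ext c
      rw [MulAction.mem_fixedPoints, Finset.mem_coe, mem_fixCosets]
      constructor
      · intro h
        exact h ⟨y, Subgroup.mem_zpowers y⟩
      · intro h g
        have hle : Subgroup.zpowers y ≤ MulAction.stabilizer G c := by
          rw [Subgroup.zpowers_le]
          exact h
        exact hle g.2
    rw [h3, Nat.card_coe_set_eq, Set.ncard_coe_finset]
  rw [h2] at h1
  exact h1.symm

theorem transfer_eq_prod_fixed (l : P →* A) (y : G)
    (hlong : ∀ c : G ⧸ P, minimalPeriod (y • ·) c ≠ 1 →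
      extOne P l (c.out⁻¹ * y ^ minimalPeriod (y • ·) c * c.out) = 1) :
    l.transfer y = ∏ c ∈ fixCosets P y, extOne P l (c.out⁻¹ * y * c.out) := by
  classical
  haveI := Fintype.ofFinite (G ⧸ P)
  haveI : Fintype (Quotient (orbitRel (Subgroup.zpowers y) (G ⧸ P))) := Fintype.ofFinite _
  rw [MonoidHom.transfer_eq_prod_quotient_orbitRel_zpowers_quot]
  have hfixz : ∀ c : G ⧸ P, y • c = c → ∀ z : Subgroup.zpowers y, z • c = c := by
    intro c hc z
    have hle : Subgroup.zpowers y ≤ MulAction.stabilizer G c := by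
      rw [Subgroup.zpowers_le]
      exact hc
    exact hle z.2
  set Φ : Quotient (orbitRel (Subgroup.zpowers y) (G ⧸ P)) → A := fun q =>
    l ⟨q.out.out⁻¹ * y ^ Function.minimalPeriod (y • ·) q.out * q.out.out,
      QuotientGroup.out_conj_pow_minimalPeriod_mem P y q.out⟩ with hΦ
  have hout : ∀ c ∈ fixCosets P y, (Quotient.mk (orbitRel (Subgroup.zpowers y) (G ⧸ P)) c).out = c := by
    intro c hc
    have h1 := Quotient.mk_out (s := orbitRel (Subgroup.zpowers y) (G ⧸ P)) c
    rw [orbitRel_apply] at h1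
    obtain ⟨z, hz⟩ := h1
    rw [← hz]
    exact hfixz c ((mem_fixCosets P).1 hc) z
  have himg : ∀ q, q ∉ (fixCosets P y).image (Quotient.mk (orbitRel (Subgroup.zpowers y) (G ⧸ P))) →
      Φ q = 1 := by
    intro q hq
    have hper : minimalPeriod (y • ·) q.out ≠ 1 := by
      intro h1
      apply hq
      refine Finset.mem_image.2 ⟨q.out, ?_, Quotient.out_eq q⟩
      rw [mem_fixCosets]
      exact minimalPeriod_eq_one_iff_isFixedPt.1 h1
    have := hlong q.out hper
    rw [extOne_of_mem l (QuotientGroup.out_conj_pow_minimalPeriod_mem P y q.out)] at this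
    exact this
  have hinj : Set.InjOn (Quotient.mk (orbitRel (Subgroup.zpowers y) (G ⧸ P)))
      (fixCosets P y : Set (G ⧸ P)) := by
    intro c hc c' hc' he
    have h1 : orbitRel (Subgroup.zpowers y) (G ⧸ P) c c' := Quotient.exact he
    rw [orbitRel_apply] at h1
    obtain ⟨z, hz⟩ := h1
    rw [← hz]
    exact hfixz c' ((mem_fixCosets P).1 hc') z
  rw [← Finset.prod_subset (Finset.subset_univ _) (fun q _ hq => himg q hq), Finset.prod_image hinj]
  apply Finset.prod_congr rfl
  intro c hc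
  have h1 := hout c hc
  have hfix : minimalPeriod (y • ·) c = 1 :=
    minimalPeriod_eq_one_iff_isFixedPt.2 ((mem_fixCosets P).1 hc)
  simp only [hΦ]
  have hm : c.out⁻¹ * y * c.out ∈ P := by
    have := QuotientGroup.out_conj_pow_minimalPeriod_mem P y c
    rwa [hfix, pow_one] at this
  rw [extOne_of_mem l hm]
  congr 1
  apply Subtype.ext
  simp only [h1, hfix, pow_one]

end transfer

section main

variable [Finite G] {p : ℕ} [hpf : Fact p.Prime] {P Q : Subgroup G}

theorem le_normalizer_of_weaklyClosed (hwc : IsWeaklyClosed Q P) : P ≤ Subgroup.normalizer (Q : Set G) := by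
  intro u hu
  apply mem_normalizer_of_map_eq
  apply hwc.2
  rintro _ ⟨z, hz, rfl⟩
  exact P.mul_mem (P.mul_mem hu (hwc.1 hz)) (P.inv_mem hu)

theorem exists_w (hP : IsPGroup p P) (hwc : IsWeaklyClosed Q P) (g : G)
    (hg : g ∉ Subgroup.normalizer (Q : Set G)) :
    ∃ w ∈ Q, g⁻¹ * w * g ∉ P ∧ (∀ u ∈ P, g⁻¹ * u * g ∈ P → g⁻¹ * (w⁻¹ * u * w) * g ∈ P) ∧
      g⁻¹ * w ^ p * g ∈ P := by
  let D : Subgroup G := P ⊓ P.comap (MulAut.conj g⁻¹).toMonoidHom
  have hD : ∀ u, u ∈ D ↔ u ∈ P ∧ g⁻¹ * u * g ∈ P := by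
    intro u
    simp [D, Subgroup.mem_inf, Subgroup.mem_comap, MulAut.conj_apply]
  have hDP : D ≤ P := inf_le_left
  have hPN := le_normalizer_of_weaklyClosed hwc
  have hQD : ¬ Q ≤ D := by
    intro hle
    apply hg
    have h1 : Q.map (MulAut.conj g⁻¹).toMonoidHom ≤ P := by
      rintro _ ⟨z, hz, rfl⟩
      have := ((hD z).1 (hle hz)).2
      simpa [MulAut.conj_apply] using this
    have h2 := hwc.2 g⁻¹ h1
    have h3 := mem_normalizer_of_map_eq Q g⁻¹ h2
    simpa using (Subgroup.normalizer _).inv_mem h3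
  obtain ⟨q, hqQ, hqD, hqN⟩ : ∃ q ∈ Q, q ∉ D ∧ q ∈ Subgroup.normalizer (D : Set G) := by
    let K : Subgroup G := D ⊔ Q
    have hKP : K ≤ P := sup_le hDP hwc.1
    have hKp : IsPGroup p K := hP.to_le hKP
    have hKnil : Group.IsNilpotent K := hKp.isNilpotent
    have hDK : D ≤ K := le_sup_left
    have hlt : D.subgroupOf K < ⊤ := by
      apply lt_top_iff_ne_top.2
      intro e
      apply hQD
      intro z hz
      have : (⟨z, (le_sup_right : Q ≤ K) hz⟩ : K) ∈ D.subgroupOf K := by rw [e]; trivial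
      exact Subgroup.mem_subgroupOf.1 this
    have h1 := Group.normalizerCondition_of_isNilpotent (G := K) _ hlt
    obtain ⟨v, hvN, hvD⟩ := SetLike.exists_of_lt h1
    have hvG : (v : G) ∈ ((D ⊔ Q : Subgroup G) : Set G) := v.2
    rw [Subgroup.coe_mul_of_left_le_normalizer_right D Q (hDP.trans hPN)] at hvG
    obtain ⟨d, hd, q, hq, hdq⟩ := Set.mem_mul.1 hvG
    refine ⟨q, hq, ?_, ?_⟩
    · intro hqD
      apply hvD
      apply Subgroup.mem_subgroupOf.2
      rw [← hdq]
      exact D.mul_mem hd hqD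
    · have hvNG : (v : G) ∈ Subgroup.normalizer (D : Set G) := by
        apply mem_normalizer_of_conj_le
        intro x hx
        have h2 := (Subgroup.mem_normalizer_iff.1 hvN ⟨x, hDK hx⟩).1 (Subgroup.mem_subgroupOf.2 hx)
        exact Subgroup.mem_subgroupOf.1 h2
      have e : q = d⁻¹ * v := by rw [← hdq]; group
      rw [e]
      exact (Subgroup.normalizer _).mul_mem
        ((Subgroup.normalizer _).inv_mem (Subgroup.le_normalizer hd)) hvNG
  have hqP : q ∈ P := hwc.1 hqQ
  obtain ⟨k₀, hk₀⟩ := hP ⟨q, hqP⟩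
  have hex : ∃ k : ℕ, q ^ p ^ k ∈ D := ⟨k₀, by
    have : q ^ p ^ k₀ = 1 := by simpa using congrArg Subtype.val hk₀
    rw [this]; exact D.one_mem⟩
  classical
  have hmin : ∀ m, m < Nat.find hex → q ^ p ^ m ∉ D := fun m hm => Nat.find_min hex hm
  have hspec := Nat.find_spec hex
  set k := Nat.find hex with hk
  have hk0 : k ≠ 0 := by
    intro h0
    rw [h0] at hspec
    simp only [pow_zero, pow_one] at hspec
    exact hqD hspec
  obtain ⟨k', hk'⟩ : ∃ k', k = k' + 1 := ⟨k - 1, by omega⟩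
  have hwD : q ^ p ^ k' ∉ D := hmin k' (by omega)
  have hwpow : (q ^ p ^ k') ^ p ∈ D := by
    rw [← pow_mul, ← pow_succ, ← hk']
    exact hspec
  have hwN : q ^ p ^ k' ∈ Subgroup.normalizer (D : Set G) := Subgroup.pow_mem _ hqN _
  have hwP : q ^ p ^ k' ∈ P := P.pow_mem hqP _
  refine ⟨q ^ p ^ k', Q.pow_mem hqQ _, ?_, ?_, ((hD _).1 hwpow).2⟩
  · intro hh
    exact hwD ((hD _).2 ⟨hwP, hh⟩)
  · intro u hu hgu
    have huD : u ∈ D := (hD u).2 ⟨hu, hgu⟩
    have hinv := (Subgroup.normalizer _).inv_mem hwN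
    have h2 := (Subgroup.mem_normalizer_iff.1 hinv u).1 huD
    rw [inv_inv] at h2
    exact ((hD _).1 h2).2

theorem smul_eq_iff_conj_mem (u : G) (c : G ⧸ P) : u • c = c ↔ c.out⁻¹ * u * c.out ∈ P := by
  have h1 : u • c = (QuotientGroup.mk (u * c.out) : G ⧸ P) := by
    conv_lhs => rw [← QuotientGroup.out_eq' c]
    rfl
  rw [h1]
  conv_lhs => rhs; rw [← QuotientGroup.out_eq' c]
  rw [QuotientGroup.eq]
  constructor
  · intro h
    have e : c.out⁻¹ * u * c.out = ((u * c.out)⁻¹ * c.out)⁻¹ := by group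
    rw [e]; exact P.inv_mem h
  · intro h
    have e : (u * c.out)⁻¹ * c.out = (c.out⁻¹ * u * c.out)⁻¹ := by group
    rw [e]; exact P.inv_mem h

open Classical in
/-- The contribution of the cosets outside `N(Q)`. -/
theorem prod_outer_eq_one (hP : IsPGroup p P) (hwc : IsWeaklyClosed Q P)
    (hE : ∀ u ∈ P, ∀ z ∈ Q, (fun y : G => y⁻¹ * z⁻¹ * y * z)^[p - 1] u = 1)
    (l : P →* A) (hA : ∀ a : A, a ^ p = 1) {y : G} (hy : y ∈ P) :
    ∏ c ∈ (fixCosets P y).filter (fun c => c.out ∉ Subgroup.normalizer (Q : Set G)),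
      (extOne P l (c.out⁻¹ * y * c.out) * (extOne P l y)⁻¹) = 1 := by
  classical
  have hpp : p.Prime := hpf.out
  set H : Subgroup G := Subgroup.normalizer (Q : Set G) with hH
  have hPH : P ≤ H := le_normalizer_of_weaklyClosed hwc
  -- the choice of `W`
  have hWex : ∀ b : G ⧸ P, ∃ w : G, w ∈ P ∧ w ^ p • b = b ∧ (∀ u ∈ P, u • b = b → (w⁻¹ * u * w) • b = b) ∧
      (b.out ∉ H → w ∈ Q ∧ w • b ≠ b) := by
    intro b
    by_cases hb : b.out ∈ H
    · exact ⟨1, P.one_mem, by simp, by simp, fun h => absurd hb h⟩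
    · obtain ⟨w, hw, h1, h2, h3⟩ := exists_w hP hwc b.out hb
      refine ⟨w, hwc.1 hw, ?_, ?_, fun _ => ⟨hw, ?_⟩⟩
      · rw [smul_eq_iff_conj_mem]; exact h3
      · intro u hu hub
        rw [smul_eq_iff_conj_mem] at hub ⊢
        exact h2 u hu hub
      · rw [Ne, smul_eq_iff_conj_mem]; exact h1
  choose W hW1 hW2 hW3 hW4 using hWex
  -- base points
  let B : G ⧸ P → G ⧸ P := fun c => (Quotient.mk (orbitRel P (G ⧸ P)) c).out
  have hB1 : ∀ c, ∃ u : G, u ∈ P ∧ u • B c = c := by
    intro c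
    have h1 := Quotient.mk_out (s := orbitRel P (G ⧸ P)) c
    rw [orbitRel_apply] at h1
    obtain ⟨v, hv⟩ := h1
    refine ⟨(v : G)⁻¹, P.inv_mem v.2, ?_⟩
    have hv' : (v : G) • c = B c := hv
    rw [← hv', smul_smul]
    simp
  have hB2 : ∀ c, ∀ u ∈ P, B (u • c) = B c := by
    intro c u hu
    have e : Quotient.mk (orbitRel P (G ⧸ P)) (u • c) = Quotient.mk (orbitRel P (G ⧸ P)) c := by
      apply Quotient.sound
      show orbitRel P (G ⧸ P) (u • c) c
      rw [orbitRel_apply]
      exact ⟨⟨u, hu⟩, rfl⟩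
    simp only [B, e]
  have hB3 : ∀ c, B (B c) = B c := by
    intro c
    simp only [B]
    rw [Quotient.out_eq]
  choose U hU1 hU2 using hB1
  let σ : G ⧸ P → G ⧸ P := fun c => (U c * W (B c)) • B c
  have hσ : ∀ c, ∀ u ∈ P, u • B c = c → σ c = (u * W (B c)) • B c := by
    intro c u hu huc
    set b := B c
    set w := W b
    have h1 : (u⁻¹ * U c) • b = b := by
      rw [mul_smul, hU2 c, ← huc, smul_smul]
      simp
    have h2 := hW3 b (u⁻¹ * U c) (P.mul_mem (P.inv_mem hu) (hU1 c)) h1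
    show (U c * w) • b = (u * w) • b
    have e : U c * w = (u * w) * (w⁻¹ * (u⁻¹ * U c) * w) := by group
    rw [e, mul_smul, h2]
  have hiter : ∀ b, B b = b → ∀ u ∈ P, ∀ i : ℕ, σ^[i] (u • b) = (u * W b ^ i) • b := by
    intro b hb u hu i
    induction i with
    | zero => simp
    | succ i ih =>
      rw [iterate_succ_apply', ih]
      have hmem : u * W b ^ i ∈ P := P.mul_mem hu (P.pow_mem (hW1 b) i)
      have hBc : B ((u * W b ^ i) • b) = b := by rw [hB2 b _ hmem, hb]
      have h1 := hσ ((u * W b ^ i) • b) _ hmem (by rw [hBc])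
      rw [h1, hBc, pow_succ, mul_assoc]
  -- cosets outside `H`
  have hout : ∀ c : G ⧸ P, ∀ v ∈ P, ((v • c).out ∈ H ↔ c.out ∈ H) := by
    intro c v hv
    have h1 : ∀ t : G, ((QuotientGroup.mk t : G ⧸ P).out ∈ H ↔ t ∈ H) := by
      intro t
      obtain ⟨s, hs⟩ := QuotientGroup.mk_out_eq_mul P t
      rw [hs]
      exact Subgroup.mul_mem_cancel_right _ (hPH s.2)
    have h2 : v • c = (QuotientGroup.mk (v * c.out) : G ⧸ P) := by
      conv_lhs => rw [← QuotientGroup.out_eq' c]
      rfl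
    rw [h2, h1]
    exact Subgroup.mul_mem_cancel_left _ (hPH hv)
  set X := (fixCosets P y).filter (fun c => c.out ∉ H) with hX
  have hXmem : ∀ c, c ∈ X ↔ y • c = c ∧ c.out ∉ H := by
    intro c
    rw [hX, Finset.mem_filter, mem_fixCosets]
  -- apply the cycle lemma
  have hbase : ∀ c ∈ X, (B c).out ∉ H := by
    intro c hc hin
    have h1 := hout (B c) (U c) (hU1 c)
    rw [hU2 c] at h1
    exact ((hXmem c).1 hc).2 (h1.2 hin)
  apply prod_eq_one_of_cycles hpp σ
    (fun c => extOne P l (c.out⁻¹ * y * c.out) * (extOne P l y)⁻¹) _ X rfl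
  · intro c hc
    obtain ⟨hcy, hcH⟩ := (hXmem c).1 hc
    rw [hXmem]
    constructor
    · have h1 : (y * U c) • B c = c := by rw [mul_smul, hU2 c, hcy]
      have h2 := hσ c (y * U c) (P.mul_mem hy (hU1 c)) h1
      have h3 : y • σ c = (y * U c * W (B c)) • B c := by
        show y • ((U c * W (B c)) • B c) = _
        rw [smul_smul, mul_assoc]
      rw [h3, ← h2]
    · intro hin
      have hmem : U c * W (B c) ∈ P := P.mul_mem (hU1 c) (hW1 _)
      have h1 := hout (B c) _ hmem
      exact hbase c hc (h1.1 hin)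
  · intro c hc
    have h1 := hiter (B c) (hB3 c) (U c) (hU1 c) p
    rw [hU2 c] at h1
    rw [h1, mul_smul, hW2, hU2 c]
  · intro c hc he
    have h1 : (U c * W (B c)) • B c = U c • B c := by
      have : σ c = (U c * W (B c)) • B c := rfl
      rw [← this, he, hU2 c]
    rw [mul_smul] at h1
    exact (hW4 _ (hbase c hc)).2 (smul_left_cancel _ h1)
  · intro c hc
    obtain ⟨hcy, hcH⟩ := (hXmem c).1 hc
    set b := B c with hb
    set u := U c with hu
    have huP : u ∈ P := hU1 c
    have huc : u • b = c := hU2 c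
    set w := W b with hw
    have hwP : w ∈ P := hW1 b
    obtain ⟨hwQ, -⟩ := hW4 b (hbase c hc)
    set g := b.out with hg
    set e := u⁻¹ * y * u with he
    have heP : e ∈ P := P.mul_mem (P.mul_mem (P.inv_mem huP) hy) huP
    have heb : e • b = b := by
      have h1 : e = u⁻¹ * (y * u) := by rw [he]; group
      rw [h1, mul_smul, mul_smul, huc, hcy, ← huc, smul_smul]
      simp
    have hegP : g⁻¹ * e * g ∈ P := (smul_eq_iff_conj_mem e b).1 heb
    let D : Subgroup G := P ⊓ P.comap (MulAut.conj g⁻¹).toMonoidHom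
    have hD : ∀ v, v ∈ D ↔ v ∈ P ∧ g⁻¹ * v * g ∈ P := by
      intro v
      simp [D, Subgroup.mem_inf, Subgroup.mem_comap, MulAut.conj_apply]
    have hDw : ∀ d ∈ D, w⁻¹ * d * w ∈ D := by
      intro d hd
      obtain ⟨hd1, hd2⟩ := (hD d).1 hd
      refine (hD _).2 ⟨P.mul_mem (P.mul_mem (P.inv_mem hwP) hd1) hwP, ?_⟩
      exact (smul_eq_iff_conj_mem _ b).1 (hW3 b d hd1 ((smul_eq_iff_conj_mem d b).2 hd2))
    let θ : D →* A := MonoidHom.mk' (fun d => extOne P l (g⁻¹ * (d : G) * g)) (by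
      intro a b'
      have h1 := ((hD a).1 a.2).2
      have h2 := ((hD b').1 b'.2).2
      have e2 : g⁻¹ * ((a * b' : D) : G) * g = (g⁻¹ * (a : G) * g) * (g⁻¹ * (b' : G) * g) := by
        simp only [Subgroup.coe_mul]; group
      rw [e2, extOne_mul l h1 h2])
    let φ : D →* D := MonoidHom.mk' (fun d => ⟨w⁻¹ * (d : G) * w, hDw d d.2⟩) (by
      intro a b'
      apply Subtype.ext
      simp only [Subgroup.coe_mul]
      group)
    have heD : e ∈ D := (hD e).2 ⟨heP, hegP⟩
    have hφ : ∀ (i : ℕ), ((φ^[i] ⟨e, heD⟩ : D) : G) = (w⁻¹) ^ i * e * w ^ i := by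
      intro i
      induction i with
      | zero => simp
      | succ i ih =>
        rw [iterate_succ_apply']
        show w⁻¹ * ((φ^[i] ⟨e, heD⟩ : D) : G) * w = _
        rw [ih, pow_succ, pow_succ']
        group
    have hengel : (fun x : D => x⁻¹ * φ x)^[p - 1] ⟨e, heD⟩ = 1 := by
      have h1 : ∀ k : ℕ, (((fun x : D => x⁻¹ * φ x)^[k] ⟨e, heD⟩ : D) : G)
          = (fun x : G => x⁻¹ * w⁻¹ * x * w)^[k] e := by
        intro k
        induction k with
        | zero => rfl
        | succ k ih =>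
          rw [iterate_succ_apply', iterate_succ_apply', ← ih]
          show ((_ : D)⁻¹ * (φ _) : D).1 = _
          simp only [Subgroup.coe_mul, Subgroup.coe_inv]
          show _ * (w⁻¹ * _ * w) = _
          group
      apply Subtype.ext
      rw [h1]
      exact hE e heP w hwQ
    have hnorm := norm_engel hpp hA θ φ ⟨e, heD⟩ hengel
    have hval : ∀ i : ℕ, extOne P l ((σ^[i] c).out⁻¹ * y * (σ^[i] c).out) = θ (φ^[i] ⟨e, heD⟩) := by
      intro i
      have h1 : σ^[i] c = (u * w ^ i) • b := by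
        have := hiter b (hB3 c) u huP i
        rw [huc] at this
        exact this
      have h2 : (QuotientGroup.mk (u * w ^ i * g) : G ⧸ P) = σ^[i] c := by
        rw [h1]
        show (QuotientGroup.mk (u * w ^ i * g) : G ⧸ P) = (u * w ^ i) • (b : G ⧸ P)
        conv_rhs => rw [← QuotientGroup.out_eq' b]
        rfl
      rw [← extOne_out l y (u * w ^ i * g) _ h2]
      show _ = extOne P l (g⁻¹ * ((φ^[i] ⟨e, heD⟩ : D) : G) * g)
      rw [hφ i]
      congr 1
      rw [he, inv_pow]
      group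
    simp only [hval]
    rw [Finset.prod_mul_distrib, hnorm, one_mul, Finset.prod_const, Finset.card_range, hA]

end main

end Cfsg.Agent.H20
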