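import Mathlib
import Cfsg.Prelude.Def_Transfer
import Cfsg.Prelude.Def_BaumannBlocks
import Cfsg.Agent.Lib.H20.HallWielandt2
import Cfsg.Agent.Lib.H01.Tate2

/-! The Hall-Wielandt theorem (namespace `Cfsg.Agent.H20`). -/

set_option autoImplicit false
set_option linter.unusedVariables false
set_option linter.style.haveILetI false
set_option linter.unusedSectionVars false

namespace Cfsg.Agent.H20

open Finset MulAction Function
open Cfsg
open scoped IsMulCommutative commutatorElement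

variable {G : Type*} [Group G] {A : Type*} [CommGroup A]
variable [Finite G] {p : ℕ} [hpf : Fact p.Prime] {P Q : Subgroup G}

theorem eq_of_pow_eq_of_coprime (hA : ∀ a : A, a ^ p = 1) {a b : A} {n : ℕ} (hn : n.Coprime p)
    (h : a ^ n = b ^ n) : a = b := by
  have h1 : (a * b⁻¹) ^ n = 1 := by rw [mul_pow, inv_pow, h, mul_inv_cancel]
  have h2 := pow_gcd_eq_one.2 ⟨h1, hA (a * b⁻¹)⟩
  rw [Nat.Coprime.gcd_eq_one hn, pow_one] at h2
  exact mul_inv_eq_one.1 h2

theorem transfer_eq_pow_index (hP : IsPGroup p P) (hwc : IsWeaklyClosed Q P)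
    (hE : ∀ u ∈ P, ∀ z ∈ Q, (fun y : G => y⁻¹ * z⁻¹ * y * z)^[p - 1] u = 1)
    (l : P →* A) (hA : ∀ a : A, a ^ p = 1)
    (hinv : ∀ h ∈ Subgroup.normalizer (Q : Set G), ∀ x ∈ P, h⁻¹ * x * h ∈ P →
      extOne P l (h⁻¹ * x * h) = extOne P l x)
    {y : G} (hy : y ∈ P)
    (hIH : ∀ x ∈ P, orderOf x < orderOf y → ∀ t : G, t⁻¹ * x * t ∈ P →
      extOne P l (t⁻¹ * x * t) = extOne P l x) :
    l.transfer y = (extOne P l y) ^ P.index := by
  classical
  have hpp : p.Prime := hpf.out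
  rw [transfer_eq_prod_fixed P l y]
  · set a := extOne P l y with ha
    have h1 : ∏ c ∈ fixCosets P y, extOne P l (c.out⁻¹ * y * c.out)
        = (∏ c ∈ fixCosets P y, (extOne P l (c.out⁻¹ * y * c.out) * a⁻¹)) * a ^ (fixCosets P y).card := by
      rw [Finset.prod_mul_distrib, Finset.prod_const, mul_assoc, ← mul_pow, inv_mul_cancel, one_pow, mul_one]
    have h2 : ∏ c ∈ fixCosets P y, (extOne P l (c.out⁻¹ * y * c.out) * a⁻¹) = 1 := by
      rw [← Finset.prod_filter_mul_prod_filter_not _ (fun c => c.out ∈ Subgroup.normalizer (Q : Set G))]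
      rw [prod_outer_eq_one hP hwc hE l hA hy, mul_one]
      apply Finset.prod_eq_one
      intro c hc
      obtain ⟨hc1, hc2⟩ := Finset.mem_filter.1 hc
      have hc3 : c.out⁻¹ * y * c.out ∈ P := (smul_eq_iff_conj_mem y c).1 ((mem_fixCosets P).1 hc1)
      rw [hinv _ hc2 y hy hc3, ← ha, mul_inv_cancel]
    rw [h1, h2, one_mul]
    have h3 := card_fixCosets_modEq (p := p) P hP hy
    rw [pow_eq_pow_mod _ (hA a), h3, ← pow_eq_pow_mod _ (hA a)]
  · intro c hne
    set n := minimalPeriod (y • ·) c with hn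
    obtain ⟨k, hk⟩ := hP ⟨y, hy⟩
    have hk' : y ^ p ^ k = 1 := by simpa using congrArg Subtype.val hk
    have hodvd : orderOf y ∣ p ^ k := orderOf_dvd_of_pow_eq_one hk'
    have hperiod : IsPeriodicPt (y • ·) (orderOf y) c := by
      show (fun x => y • x)^[orderOf y] c = c
      rw [smul_iterate]
      simp [pow_orderOf_eq_one]
    have hnd : n ∣ orderOf y := hperiod.minimalPeriod_dvd
    obtain ⟨b, _, hb⟩ := (Nat.dvd_prime_pow hpp).1 (hnd.trans hodvd)
    have hb0 : b ≠ 0 := by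
      rintro rfl
      exact hne (by simpa [hn] using hb)
    have hmem : y ^ n ∈ P := P.pow_mem hy n
    have hord : orderOf (y ^ n) < orderOf y := by
      have hn0 : n ≠ 0 := by rw [hb]; exact pow_ne_zero _ hpp.ne_zero
      rw [orderOf_pow_of_dvd hn0 hnd]
      apply Nat.div_lt_self (orderOf_pos_iff.2 (isOfFinOrder_of_finite y))
      rw [hb]
      exact Nat.one_lt_pow hb0 hpp.one_lt
    have hc := hIH (y ^ n) hmem hord c.out (QuotientGroup.out_conj_pow_minimalPeriod_mem P y c)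
    rw [hc, extOne_pow l hy]
    obtain ⟨b', rfl⟩ : ∃ b', b = b' + 1 := ⟨b - 1, by omega⟩
    rw [hb, pow_succ, mul_comm, pow_mul, hA, one_pow]

theorem stable_of_hinv (hP : IsPGroup p P) (hPi : ¬ p ∣ P.index) (hwc : IsWeaklyClosed Q P)
    (hE : ∀ u ∈ P, ∀ z ∈ Q, (fun y : G => y⁻¹ * z⁻¹ * y * z)^[p - 1] u = 1)
    (l : P →* A) (hA : ∀ a : A, a ^ p = 1)
    (hinv : ∀ h ∈ Subgroup.normalizer (Q : Set G), ∀ x ∈ P, h⁻¹ * x * h ∈ P →
      extOne P l (h⁻¹ * x * h) = extOne P l x) :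
    ∀ (n : ℕ) (y : G), orderOf y = n → y ∈ P → ∀ t : G, t⁻¹ * y * t ∈ P →
      extOne P l (t⁻¹ * y * t) = extOne P l y := by
  have hpp : p.Prime := hpf.out
  intro n
  induction n using Nat.strong_induction_on with
  | _ n ih =>
  intro y hyn hy t ht
  have hIH : ∀ x ∈ P, orderOf x < orderOf y → ∀ t : G, t⁻¹ * x * t ∈ P →
      extOne P l (t⁻¹ * x * t) = extOne P l x := by
    intro x hx hlt t' ht'
    exact ih _ (by rw [← hyn]; exact hlt) x rfl hx t' ht'
  have hordc : orderOf (t⁻¹ * y * t) = orderOf y := by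
    have : t⁻¹ * y * t = MulAut.conj t⁻¹ y := by simp [MulAut.conj_apply]
    rw [this, MulEquiv.orderOf_eq]
  have h1 := transfer_eq_pow_index hP hwc hE l hA hinv hy hIH
  have h2 := transfer_eq_pow_index hP hwc hE l hA hinv ht (by rw [hordc]; exact hIH)
  have h3 : l.transfer (t⁻¹ * y * t) = l.transfer y := by
    simp only [map_mul, map_inv]
    rw [mul_comm (l.transfer t)⁻¹, mul_assoc, inv_mul_cancel, mul_one]
  rw [h3, h1] at h2
  have hco : P.index.Coprime p := ((Nat.Prime.coprime_iff_not_dvd hpp).2 hPi).symm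
  exact eq_of_pow_eq_of_coprime hA hco h2.symm

/-- Homomorphisms to exponent-`p` abelian groups extend from `N(Q)` to `G`. -/
theorem exists_extension (hP : IsPGroup p P) (hPi : ¬ p ∣ P.index) (hwc : IsWeaklyClosed Q P)
    (hE : ∀ u ∈ P, ∀ z ∈ Q, (fun y : G => y⁻¹ * z⁻¹ * y * z)^[p - 1] u = 1)
    (hA : ∀ a : A, a ^ p = 1) (χ : Subgroup.normalizer (Q : Set G) →* A) :
    ∃ χ' : G →* A, ∀ h : Subgroup.normalizer (Q : Set G), χ' h = χ h := by
  have hpp : p.Prime := hpf.out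
  let H : Subgroup G := Subgroup.normalizer (Q : Set G)
  have hPH : P ≤ H := le_normalizer_of_weaklyClosed hwc
  let l : P →* A := χ.comp (Subgroup.inclusion hPH)
  have hLx : ∀ x (hx : x ∈ P), extOne P l x = χ ⟨x, hPH hx⟩ := by
    intro x hx
    rw [extOne_of_mem l hx]
    rfl
  have hinv : ∀ h ∈ H, ∀ x ∈ P, h⁻¹ * x * h ∈ P → extOne P l (h⁻¹ * x * h) = extOne P l x := by
    intro h hh x hx hc
    rw [hLx _ hc, hLx _ hx]
    have e : (⟨h⁻¹ * x * h, hPH hc⟩ : H) = (⟨h, hh⟩ : H)⁻¹ * ⟨x, hPH hx⟩ * ⟨h, hh⟩ := rfl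
    rw [e, map_mul, map_mul, map_inv]
    simp [mul_comm]
  have hst := stable_of_hinv hP hPi hwc hE l hA hinv
  have hco : P.index.Coprime p := ((Nat.Prime.coprime_iff_not_dvd hpp).2 hPi).symm
  obtain ⟨r, _, hr⟩ := Nat.exists_mul_mod_eq_one_of_coprime hco hpp.one_lt
  refine ⟨(l.transfer) ^ r, ?_⟩
  have hPval : ∀ y (hy : y ∈ P), ((l.transfer) ^ r) y = χ ⟨y, hPH hy⟩ := by
    intro y hy
    have h1 := transfer_eq_pow_index hP hwc hE l hA hinv hy
      (fun x hx hlt t ht => hst _ x rfl hx t ht)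
    rw [MonoidHom.pow_apply, h1, ← pow_mul, pow_eq_pow_mod _ (hA _), hr, pow_one]
    exact hLx y hy
  -- the two homomorphisms agree on `H`
  let δ : H →* A := ((l.transfer) ^ r).comp H.subtype * χ⁻¹
  have hδP : P.subgroupOf H ≤ δ.ker := by
    intro x hx
    rw [MonoidHom.mem_ker]
    have hx' : (x : G) ∈ P := Subgroup.mem_subgroupOf.1 hx
    show ((l.transfer) ^ r) (x : G) * (χ x)⁻¹ = 1
    rw [hPval _ hx']
    exact mul_inv_cancel _
  have hidx : ¬ p ∣ δ.ker.index := by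
    intro hd
    apply hPi
    have h1 : δ.ker.index ∣ (P.subgroupOf H).index := Subgroup.index_dvd_of_le hδP
    have h2 : (P.subgroupOf H).index ∣ P.index := by
      have h3 := Subgroup.relIndex_mul_index hPH
      rw [Subgroup.relIndex] at h3
      exact Dvd.intro _ h3
    exact hd.trans (h1.trans h2)
  intro h
  have h1 : δ h = 1 := by
    have h2 : (δ h) ^ δ.ker.index = 1 := by
      rw [← map_pow]
      exact Subgroup.pow_index_mem δ.ker h
    have hco2 : δ.ker.index.Coprime p := ((Nat.Prime.coprime_iff_not_dvd hpp).2 hidx).symm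
    have h3 := pow_gcd_eq_one.2 ⟨h2, hA (δ h)⟩
    rwa [Nat.Coprime.gcd_eq_one hco2, pow_one] at h3
  exact mul_inv_eq_one.1 h1

theorem pResidual_pResidual : pResidual p (pResidual p G) = ⊤ := by
  rw [eq_top_iff]
  rintro ⟨x, hx⟩ _
  have key : ∀ x (hx : x ∈ pResidual p G), (⟨x, hx⟩ : pResidual p G) ∈ pResidual p (pResidual p G) := by
    intro x hx
    induction hx using Subgroup.closure_induction with
    | mem x hx =>
      apply Subgroup.subset_closure
      have hmem : x ∈ pResidual p G := Subgroup.subset_closure hx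
      have h3 : Nat.Coprime (orderOf (⟨x, hmem⟩ : pResidual p G)) p := by
        rw [← Subgroup.orderOf_coe]
        exact hx
      exact h3
    | one => exact Subgroup.one_mem _
    | mul a b ha hb iha ihb => exact Subgroup.mul_mem _ iha ihb
    | inv a ha ih => exact Subgroup.inv_mem _ ih
  exact key x hx

/-- Tate's step: the residual of `N(Q)` is the intersection of the residual of `G` with `N(Q)`. -/
theorem residual_inter_le (hP : IsPGroup p P) (hPi : ¬ p ∣ P.index) (hwc : IsWeaklyClosed Q P)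
    (hE : ∀ u ∈ P, ∀ z ∈ Q, (fun y : G => y⁻¹ * z⁻¹ * y * z)^[p - 1] u = 1) :
    pResidual p G ⊓ Subgroup.normalizer (Q : Set G) ≤ pResidualOf p (Subgroup.normalizer (Q : Set G)) := by
  classical
  have hpp : p.Prime := hpf.out
  let H : Subgroup G := Subgroup.normalizer (Q : Set G)
  have hPH : P ≤ H := le_normalizer_of_weaklyClosed hwc
  rintro x ⟨hxN, hxH⟩
  refine ⟨⟨x, hxH⟩, ?_, rfl⟩
  by_contra hxR
  let N : Subgroup G := pResidual p G
  haveI hNn : N.Normal := Cfsg.Agent.H13.pResidual_normal'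
  let R : Subgroup H := pResidual p H
  haveI hRn : R.Normal := Cfsg.Agent.H13.pResidual_normal'
  let M : Subgroup H := N.subgroupOf H
  haveI hMn : M.Normal := hNn.subgroupOf H
  have hQuot : IsPGroup p (H ⧸ R) := Cfsg.Agent.H13.isPGroup_quotient_pResidual
  haveI : Group.IsNilpotent (H ⧸ R) := hQuot.isNilpotent
  let πR : H →* H ⧸ R := QuotientGroup.mk' R
  have hπR : Function.Surjective πR := QuotientGroup.mk'_surjective R
  let Mb : Subgroup (H ⧸ R) := M.map πR
  haveI hMbn : Mb.Normal := hMn.map πR hπR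
  have hMb : Mb ≠ ⊥ := by
    intro e
    apply hxR
    have h1 : πR ⟨x, hxH⟩ ∈ Mb := ⟨⟨x, hxH⟩, Subgroup.mem_subgroupOf.2 hxN, rfl⟩
    rw [e, Subgroup.mem_bot] at h1
    exact (QuotientGroup.eq_one_iff _).1 h1
  let Q₀ : Subgroup (H ⧸ R) := ⁅Mb, (⊤ : Subgroup (H ⧸ R))⁆
  haveI hQ₀n : Q₀.Normal := Subgroup.commutator_normal Mb ⊤
  have hQ₀le : Q₀ ≤ Mb := Subgroup.commutator_le_left Mb ⊤
  let π₀ : H ⧸ R →* (H ⧸ R) ⧸ Q₀ := QuotientGroup.mk' Q₀
  have hπ₀ : Function.Surjective π₀ := QuotientGroup.mk'_surjective Q₀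
  let πh : H →* (H ⧸ R) ⧸ Q₀ := π₀.comp πR
  have hπh : Function.Surjective πh := hπ₀.comp hπR
  let A' : Subgroup ((H ⧸ R) ⧸ Q₀) := M.map πh
  have hcen : ∀ a ∈ A', ∀ y : (H ⧸ R) ⧸ Q₀, a * y = y * a := by
    rintro _ ⟨q, hq, rfl⟩ y
    obtain ⟨z, rfl⟩ := hπh y
    have h1 : ⁅πR q, πR z⁆ ∈ Q₀ :=
      Subgroup.commutator_mem_commutator ⟨q, hq, rfl⟩ (Subgroup.mem_top _)
    have h2 : π₀ ⁅πR q, πR z⁆ = 1 := (QuotientGroup.eq_one_iff _).2 h1
    rw [map_commutatorElement, commutatorElement_eq_one_iff_commute] at h2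
    exact h2
  haveI hAc : IsMulCommutative A' := ⟨⟨fun a b => Subtype.ext (hcen a a.2 b)⟩⟩
  have hPhat : IsPGroup p ((H ⧸ R) ⧸ Q₀) := hQuot.of_surjective π₀ hπ₀
  have hAp : IsPGroup p A' := hPhat.to_subgroup A'
  have hHi : ¬ p ∣ H.index := fun hd => hPi (hd.trans (Subgroup.index_dvd_of_le hPH))
  obtain ⟨m, hm, ψ, hψ⟩ := Cfsg.Agent.H01.tate_transfer_lemma (p := p) H hHi N pResidual_pResidual πh A' hcen
    (fun q hq => ⟨q, Subgroup.mem_subgroupOf.2 hq, rfl⟩) hAp
  let T : Subgroup A' := (powMonoidHom p : A' →* A').range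
  have hB : ∀ b : A' ⧸ T, b ^ p = 1 := by
    intro b
    obtain ⟨a, rfl⟩ := QuotientGroup.mk_surjective b
    rw [← QuotientGroup.mk_pow, QuotientGroup.eq_one_iff]
    exact ⟨a, rfl⟩
  obtain ⟨χ', hχ'⟩ := exists_extension hP hPi hwc hE hB ((QuotientGroup.mk' T).comp ψ)
  have hker : ∀ g ∈ N, χ' g = 1 := by
    intro g hg
    induction hg using Subgroup.closure_induction with
    | mem g hg =>
      have h1 : (χ' g) ^ orderOf g = 1 := by rw [← map_pow, pow_orderOf_eq_one, map_one]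
      have h3 := pow_gcd_eq_one.2 ⟨h1, hB (χ' g)⟩
      rwa [Nat.Coprime.gcd_eq_one hg, pow_one] at h3
    | one => exact map_one _
    | mul a b _ _ iha ihb => rw [map_mul, iha, ihb, one_mul]
    | inv a _ ih => rw [map_inv, ih, inv_one]
  have hT : ∀ q : H, (q : G) ∈ N → ψ q ∈ T := by
    intro q hq
    have h1 := hχ' q
    rw [hker _ hq] at h1
    exact (QuotientGroup.eq_one_iff _).1 h1.symm
  have hall : ∀ a : A', a ∈ T := by
    rintro ⟨a, q, hq, rfl⟩
    have hqN : (q : G) ∈ N := Subgroup.mem_subgroupOf.1 hq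
    have h1 := hT q hqN
    have h2 : ψ q = (⟨πh q, q, hq, rfl⟩ : A') ^ m := Subtype.ext (hψ q hqN)
    rw [h2] at h1
    set a : A' := ⟨πh q, q, hq, rfl⟩ with ha
    obtain ⟨k, hk⟩ := hAp a
    have hord : (orderOf a).Coprime m := by
      have h3 : orderOf a ∣ p ^ k := orderOf_dvd_of_pow_eq_one hk
      exact Nat.Coprime.coprime_dvd_left h3 (Nat.Coprime.pow_left k hm.symm)
    obtain ⟨r, hr⟩ := exists_pow_eq_self_of_coprime hord.symm
    rw [← hr]
    exact T.pow_mem h1 r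
  have hsurj : Function.Surjective (powMonoidHom p : A' →* A') := by
    intro a
    exact hall a
  have hinj : Function.Injective (powMonoidHom p : A' →* A') := Finite.injective_iff_surjective.2 hsurj
  have hAne : Nat.card A' ≠ 1 := by
    intro h1
    have h2 : A' = ⊥ := Subgroup.card_eq_one.1 h1
    apply Cfsg.Agent.H01.commutator_top_ne_self Mb hMb
    apply le_antisymm hQ₀le
    rintro _ ⟨q, hq, rfl⟩
    have h3 : πh q ∈ A' := ⟨q, hq, rfl⟩
    rw [h2, Subgroup.mem_bot] at h3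
    exact (QuotientGroup.eq_one_iff _).1 h3
  have hdvd : p ∣ Nat.card A' := by
    rcases hAp.card_eq_or_dvd with h | h
    · exact absurd h hAne
    · exact h
  obtain ⟨z, hz⟩ := exists_prime_orderOf_dvd_card' (G := A') p hdvd
  have hz1 : z = 1 := by
    apply hinj
    show z ^ p = 1 ^ p
    rw [one_pow, ← hz, pow_orderOf_eq_one]
  rw [hz1, orderOf_one] at hz
  exact hpp.one_lt.ne hz

/-- **The Hall-Wielandt theorem.** -/
theorem hall_wielandt (hP : IsPGroup p P) (hPi : ¬ p ∣ P.index) (hwc : IsWeaklyClosed Q P)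
    (hE : ∀ u ∈ P, ∀ z ∈ Q, (fun y : G => y⁻¹ * z⁻¹ * y * z)^[p - 1] u = 1) :
    pResidualOf p (Subgroup.normalizer (Q : Set G)) = pResidual p G ⊓ Subgroup.normalizer (Q : Set G) := by
  apply le_antisymm _ (residual_inter_le hP hPi hwc hE)
  rw [pResidualOf, pResidual, Subgroup.map_le_iff_le_comap, Subgroup.closure_le]
  intro y hy
  refine ⟨?_, y.2⟩
  apply Subgroup.subset_closure
  have hy' : Nat.Coprime (orderOf y) p := hy
  show (orderOf (y : G)).Coprime p
  rw [Subgroup.orderOf_coe]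
  exact hy'

end Cfsg.Agent.H20
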