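import Mathlib
import Cfsg.Agent.Lib.H20.JK3

set_option autoImplicit false
set_option linter.unusedVariables false
set_option linter.unusedSectionVars false

namespace Cfsg.Agent.H20.JK

open Equiv Equiv.Perm

/-- witness table for the 9-point computation -/
def W9 (s t : Fin 9) : ℕ × Fin 9 × Fin 9 × Fin 9 × Fin 9 :=
  if (s = 2 ∧ t = 3) ∨ (s = 3 ∧ t = 2) then (1, 4, 5, 6, 7)
  else if (s = 4 ∧ t = 5) ∨ (s = 5 ∧ t = 4) then (1, 2, 3, 6, 7)
  else if (s = 8 ∧ (t = 2 ∨ t = 3)) ∨ (t = 8 ∧ (s = 2 ∨ s = 3)) then (3, 4, 5, 6, 7)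
  else if (s = 8 ∧ (t = 4 ∨ t = 5)) ∨ (t = 8 ∧ (s = 4 ∨ s = 5)) then (3, 2, 3, 6, 7)
  else if (s = 2 ∧ t = 4) ∨ (s = 4 ∧ t = 2) ∨ (s = 3 ∧ t = 5) ∨ (s = 5 ∧ t = 3) then (2, 2, 4, 3, 5)
  else (2, 2, 5, 3, 4)

theorem core9 : ∀ s₀ t₀ : Fin 9, (s₀ = 2 ∨ s₀ = 3 ∨ s₀ = 4 ∨ s₀ = 5 ∨ s₀ = 8) →
    (t₀ = 2 ∨ t₀ = 3 ∨ t₀ = 4 ∨ t₀ = 5 ∨ t₀ = 8) → s₀ ≠ t₀ →
    (W9 s₀ t₀).2.1 ≠ (W9 s₀ t₀).2.2.1 ∧ (W9 s₀ t₀).2.1 ≠ (W9 s₀ t₀).2.2.2.1 ∧
    (W9 s₀ t₀).2.1 ≠ (W9 s₀ t₀).2.2.2.2 ∧ (W9 s₀ t₀).2.2.1 ≠ (W9 s₀ t₀).2.2.2.1 ∧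
    (W9 s₀ t₀).2.2.1 ≠ (W9 s₀ t₀).2.2.2.2 ∧ (W9 s₀ t₀).2.2.2.1 ≠ (W9 s₀ t₀).2.2.2.2 ∧
      ((swap (0 : Fin 9) 1 * swap 2 3 * swap 4 5) * (swap (0 : Fin 9) 1 * swap 6 7 * swap s₀ t₀)) ^ (W9 s₀ t₀).1 =
        swap (W9 s₀ t₀).2.1 (W9 s₀ t₀).2.2.1 * swap (W9 s₀ t₀).2.2.2.1 (W9 s₀ t₀).2.2.2.2 := by
  decide +kernel

section transport
variable {D : Type*} [DecidableEq D]

theorem core9_transport (a b c d e f x y z : D) (h : [a, b, c, d, e, f, x, y, z].Nodup) {s t : D}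
    (hs : s ∈ [c, d, e, f, z]) (ht : t ∈ [c, d, e, f, z]) (hst : s ≠ t) :
    ∃ m : ℕ, ∃ i j k l : D, i ≠ j ∧ i ≠ k ∧ i ≠ l ∧ j ≠ k ∧ j ≠ l ∧ k ≠ l ∧
      ((swap a b * swap c d * swap e f) * (swap a b * swap x y * swap s t)) ^ m = swap i j * swap k l := by
  let emb : Fin 9 ↪ D := ⟨fun i => [a, b, c, d, e, f, x, y, z].get i, List.nodup_iff_injective_get.mp h⟩
  have key : ∀ w ∈ [c, d, e, f, z], ∃ w₀ : Fin 9, (w₀ = 2 ∨ w₀ = 3 ∨ w₀ = 4 ∨ w₀ = 5 ∨ w₀ = 8) ∧ emb w₀ = w := by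
    intro w hw
    simp only [List.mem_cons, List.not_mem_nil, or_false] at hw
    rcases hw with rfl | rfl | rfl | rfl | rfl
    · exact ⟨2, by decide, rfl⟩
    · exact ⟨3, by decide, rfl⟩
    · exact ⟨4, by decide, rfl⟩
    · exact ⟨5, by decide, rfl⟩
    · exact ⟨8, by decide, rfl⟩
  obtain ⟨s₀, hs₀, rfl⟩ := key s hs
  obtain ⟨t₀, ht₀, rfl⟩ := key t ht
  have hst₀ : s₀ ≠ t₀ := fun h => hst (by rw [h])
  obtain ⟨h1, h2, h3, h4, h5, h6, h7⟩ := core9 s₀ t₀ hs₀ ht₀ hst₀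
  refine ⟨(W9 s₀ t₀).1, emb (W9 s₀ t₀).2.1, emb (W9 s₀ t₀).2.2.1, emb (W9 s₀ t₀).2.2.2.1, emb (W9 s₀ t₀).2.2.2.2,
    emb.injective.ne h1, emb.injective.ne h2, emb.injective.ne h3, emb.injective.ne h4, emb.injective.ne h5,
    emb.injective.ne h6, ?_⟩
  have h8 := congrArg (tr emb) h7
  simp only [map_pow, map_mul, tr_swap] at h8
  exact h8

theorem form1 (τ : Perm D) {a b : D} (hab : a ≠ b) (h1 : τ a = b) (h2 : τ b = a)
    (h : ∀ w, w ≠ a → w ≠ b → τ w = w) : τ = swap a b := by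
  ext w
  by_cases hwa : w = a
  · subst hwa; simp [h1]
  by_cases hwb : w = b
  · subst hwb; simp [h2]
  rw [h w hwa hwb, swap_apply_of_ne_of_ne hwa hwb]

theorem form2 (τ : Perm D) {a b c d : D} (hab : a ≠ b) (hac : a ≠ c) (had : a ≠ d) (hbc : b ≠ c)
    (hbd : b ≠ d) (hcd : c ≠ d) (h1 : τ a = b) (h2 : τ b = a) (h3 : τ c = d) (h4 : τ d = c)
    (h : ∀ w, w ≠ a → w ≠ b → w ≠ c → w ≠ d → τ w = w) : τ = swap a b * swap c d := by
  ext w
  by_cases hwa : w = a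
  · subst hwa; simp [h1, Perm.mul_apply, swap_apply_of_ne_of_ne hac had]
  by_cases hwb : w = b
  · subst hwb; simp [h2, Perm.mul_apply, swap_apply_of_ne_of_ne hbc hbd]
  by_cases hwc : w = c
  · subst hwc; simp [h3, Perm.mul_apply, swap_apply_of_ne_of_ne had.symm hbd.symm]
  by_cases hwd : w = d
  · subst hwd; simp [h4, Perm.mul_apply, swap_apply_of_ne_of_ne hac.symm hbc.symm]
  rw [h w hwa hwb hwc hwd, Perm.mul_apply, swap_apply_of_ne_of_ne hwc hwd, swap_apply_of_ne_of_ne hwa hwb]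

theorem form3 (τ : Perm D) {a b c d e f : D} (hab : a ≠ b) (hac : a ≠ c) (had : a ≠ d) (hae : a ≠ e)
    (haf : a ≠ f) (hbc : b ≠ c) (hbd : b ≠ d) (hbe : b ≠ e) (hbf : b ≠ f) (hcd : c ≠ d) (hce : c ≠ e)
    (hcf : c ≠ f) (hde : d ≠ e) (hdf : d ≠ f) (hef : e ≠ f)
    (h1 : τ a = b) (h2 : τ b = a) (h3 : τ c = d) (h4 : τ d = c) (h5 : τ e = f) (h6 : τ f = e)
    (h : ∀ w, w ≠ a → w ≠ b → w ≠ c → w ≠ d → w ≠ e → w ≠ f → τ w = w) :
    τ = swap a b * swap c d * swap e f := by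
  have key : τ * swap e f = swap a b * swap c d := by
    apply form2 (τ * swap e f) hab hac had hbc hbd hcd
    · rw [Perm.mul_apply, swap_apply_of_ne_of_ne hae haf, h1]
    · rw [Perm.mul_apply, swap_apply_of_ne_of_ne hbe hbf, h2]
    · rw [Perm.mul_apply, swap_apply_of_ne_of_ne hce hcf, h3]
    · rw [Perm.mul_apply, swap_apply_of_ne_of_ne hde hdf, h4]
    · intro w hwa hwb hwc hwd
      rw [Perm.mul_apply]
      by_cases hwe : w = e
      · subst hwe; rw [swap_apply_left, h6]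
      by_cases hwf : w = f
      · subst hwf; rw [swap_apply_right, h5]
      rw [swap_apply_of_ne_of_ne hwe hwf, h w hwa hwb hwc hwd hwe hwf]
  rw [← key, mul_assoc, swap_mul_self, mul_one]

end transport

section dt
variable {α : Type*} [Fintype α] [DecidableEq α]

theorem exists_smul_4 {G : Subgroup (Perm α)} (hG : MulAction.IsMultiplyPretransitive G α 4)
    {a b c d a' b' c' d' : α} (h : [a, b, c, d].Nodup) (h' : [a', b', c', d'].Nodup) :
    ∃ g ∈ G, g a = a' ∧ g b = b' ∧ g c = c' ∧ g d = d' := by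
  obtain ⟨g, hg⟩ := hG.exists_smul_eq
    ⟨fun i => [a, b, c, d].get i, List.nodup_iff_injective_get.mp h⟩
    ⟨fun i => [a', b', c', d'].get i, List.nodup_iff_injective_get.mp h'⟩
  have hg' : ∀ i : Fin 4, (g : Perm α) ([a, b, c, d].get i) = [a', b', c', d'].get i := fun i =>
    congrArg (fun e : Fin 4 ↪ α => e i) hg
  exact ⟨g, g.2, hg' 0, hg' 1, hg' 2, hg' 3⟩

theorem three_done {G : Subgroup (Perm α)} (hprim : MulAction.IsPreprimitive G α) {a b c : α} (hab : a ≠ b)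
    (hac : a ≠ c) (hbc : b ≠ c) (h : swap a b * swap a c ∈ G) : alternatingGroup α ≤ G :=
  alternatingGroup_le_of_isPreprimitive_of_isThreeCycle_mem hprim (isThreeCycle_swap_mul_swap_same hab hac hbc) h

theorem dt_done {G : Subgroup (Perm α)} (hG : MulAction.IsMultiplyPretransitive G α 4)
    (hprim : MulAction.IsPreprimitive G α) (hn : 5 ≤ Fintype.card α) {a b c d : α} (hab : a ≠ b)
    (hac : a ≠ c) (had : a ≠ d) (hbc : b ≠ c) (hbd : b ≠ d) (hcd : c ≠ d)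
    (h : swap a b * swap c d ∈ G) : alternatingGroup α ≤ G := by
  obtain ⟨e, he⟩ := exists_ne_of_card ({a, b, c, d} : Finset α) (by
    have := Finset.card_le_four (a := a) (b := b) (c := c) (d := d)
    omega)
  simp only [Finset.mem_insert, Finset.mem_singleton, not_or] at he
  obtain ⟨hea, heb, hec, hed⟩ := he
  obtain ⟨g, hg, h1, h2, h3, h4⟩ := exists_smul_4 hG (a := a) (b := b) (c := c) (d := d) (a' := a) (b' := b) (c' := c)
    (d' := e) (by simp [hab, hac, had, hbc, hbd, hcd]) (by simp [hab, hac, hbc, Ne.symm hea, Ne.symm heb, Ne.symm hec])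
  have h5 : swap a b * swap c e ∈ G := by
    have := G.mul_mem (G.mul_mem hg h) (G.inv_mem hg)
    have e1 : g * (swap a b * swap c d) * g⁻¹ = swap (g a) (g b) * swap (g c) (g d) := by
      rw [swap_apply_apply, swap_apply_apply]; group
    rwa [e1, h1, h2, h3, h4] at this
  have h6 := G.mul_mem h h5
  rw [dt_mul_dt a b c d e hab hac had (Ne.symm hea) hbc hbd (Ne.symm heb) hcd (Ne.symm hec) (Ne.symm hed)] at h6
  exact three_done hprim hcd (Ne.symm hec) (Ne.symm hed) h6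

/-- The degree nine case. -/
theorem nine {G : Subgroup (Perm α)} (hG : MulAction.IsMultiplyPretransitive G α 4)
    (hn : Fintype.card α = 9) : alternatingGroup α ≤ G := by
  have hNat : Nat.card α = 9 := by rw [Nat.card_eq_fintype_card, hn]
  have h2t : MulAction.IsMultiplyPretransitive G α 2 :=
    MulAction.isMultiplyPretransitive_of_le (n := 4) (by norm_num) (by rw [hNat]; norm_num)
  have hprim : MulAction.IsPreprimitive G α := MulAction.isPreprimitive_of_is_two_pretransitive h2t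
  have h3t : MulAction.IsMultiplyPretransitive G α (3 + 1) := hG
  obtain ⟨Δ, -, hΔ⟩ := Finset.exists_subset_card_eq (s := (Finset.univ : Finset α)) (n := 3) (by
    rw [Finset.card_univ, hn]; omega)
  let GD : Subgroup (Perm α) :=
    { carrier := {g | g ∈ G ∧ ∀ y ∈ Δ, g y = y}
      mul_mem' := by
        rintro a b ⟨ha, ha'⟩ ⟨hb, hb'⟩
        exact ⟨G.mul_mem ha hb, fun y hy => by rw [Perm.mul_apply, hb' y hy, ha' y hy]⟩
      one_mem' := ⟨G.one_mem, fun y _ => rfl⟩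
      inv_mem' := by
        rintro a ⟨ha, ha'⟩
        refine ⟨G.inv_mem ha, fun y hy => ?_⟩
        rw [Perm.inv_eq_iff_eq]
        exact (ha' y hy).symm }
  have hΓ : (Δᶜ).card = 6 := by
    rw [Finset.card_compl, hn, hΔ]
  obtain ⟨x₀, hx₀⟩ : (Δᶜ).Nonempty := Finset.card_pos.mp (by omega)
  rw [Finset.mem_compl] at hx₀
  have horb : MulAction.orbit GD x₀ = ((Δᶜ : Finset α) : Set α) := by
    ext z
    constructor
    · rintro ⟨w, rfl⟩
      have h3 : (w : Perm α) x₀ ∉ Δ := by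
        intro h
        have h1 := w.2.2 _ h
        have h2 : (w : Perm α) x₀ = x₀ := (w : Perm α).injective h1
        rw [h2] at h
        exact hx₀ h
      simp only [Finset.coe_compl, Set.mem_compl_iff, Finset.mem_coe]
      exact h3
    · intro hz
      have hz' : z ∉ Δ := by simpa using hz
      obtain ⟨g, hgG, hg1, hg2⟩ := lift_on h3t Δ hΔ (fun y => (y : α)) Subtype.val_injective hx₀
        (fun y h => hz' (by rw [← show (y : α) = z from h]; exact y.2))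
      exact ⟨⟨g, hgG, fun y hy => hg1 ⟨y, hy⟩⟩, hg2⟩
  have h2dvd : 2 ∣ Nat.card GD := by
    have h1 : (MulAction.stabilizer GD x₀).index ∣ Nat.card GD := Subgroup.index_dvd_card _
    rw [MulAction.index_stabilizer, horb, Set.ncard_coe_finset, hΓ] at h1
    exact (by norm_num : 2 ∣ 6).trans h1
  obtain ⟨τ₀, hτ₀⟩ := exists_prime_orderOf_dvd_card' 2 h2dvd
  set τ : Perm α := (τ₀ : Perm α) with hτd
  have hτG : τ ∈ G := τ₀.2.1
  have hτfix : ∀ y ∈ Δ, τ y = y := τ₀.2.2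
  have hτ2 : ∀ w, τ (τ w) = w := by
    intro w
    have h1 : τ₀ ^ 2 = 1 := by rw [← hτ₀]; exact pow_orderOf_eq_one τ₀
    have h2 : τ ^ 2 = 1 := by
      have := congrArg (fun g : GD => (g : Perm α)) h1
      simpa using this
    have h3 := congrArg (fun g : Perm α => g w) h2
    simpa [sq] using h3
  have hτ1 : τ ≠ 1 := by
    intro h
    have : τ₀ = 1 := Subtype.ext h
    rw [this, orderOf_one] at hτ₀
    omega
  have hmoved : ∀ w, τ w ≠ w → w ∉ Δ := fun w hw h => hw (hτfix w h)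
  have hne : ∀ w, τ w ≠ w → τ (τ w) ≠ τ w := fun w hw h => hw (by
    have := τ.injective h
    exact this)
  obtain ⟨a, ha⟩ : ∃ a, τ a ≠ a := by
    by_contra hcon
    push Not at hcon
    exact hτ1 (Equiv.ext hcon)
  set b := τ a with hb
  have hab : a ≠ b := Ne.symm ha
  have hτb : τ b = a := hτ2 a
  by_cases h1 : ∀ w, w ≠ a → w ≠ b → τ w = w
  · have hform := form1 τ hab rfl hτb h1
    rw [hform] at hτG
    have := subgroup_eq_top_of_isPreprimitive_of_isSwap_mem hprim _ ⟨a, b, hab, rfl⟩ hτG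
    rw [this]
    exact le_top
  push Not at h1
  obtain ⟨c, hca, hcb, hc⟩ := h1
  set d := τ c with hd
  have hτd' : τ d = c := hτ2 c
  have hda : d ≠ a := fun h => hcb (by rw [← hτ2 c, ← hd, h, ← hb])
  have hdb : d ≠ b := fun h => hca (by
    have := τ.injective (show τ c = τ a from h)
    exact this)
  have hdc : d ≠ c := hc
  by_cases h2 : ∀ w, w ≠ a → w ≠ b → w ≠ c → w ≠ d → τ w = w
  · have hform := form2 τ hab (Ne.symm hca) (Ne.symm hda) (Ne.symm hcb) (Ne.symm hdb) (Ne.symm hdc) rfl hτb rfl hτd' h2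
    rw [hform] at hτG
    exact dt_done hG hprim (by omega) hab (Ne.symm hca) (Ne.symm hda) (Ne.symm hcb) (Ne.symm hdb) (Ne.symm hdc) hτG
  push Not at h2
  obtain ⟨e, hea, heb, hec, hed, he⟩ := h2
  set f := τ e with hf
  have hτf : τ f = e := hτ2 e
  have hfa : f ≠ a := fun h => heb (by rw [← hτ2 e, ← hf, h, ← hb])
  have hfb : f ≠ b := fun h => hea (τ.injective (show τ e = τ a from h))
  have hfc : f ≠ c := fun h => hed (by rw [← hτ2 e, ← hf, h, ← hd])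
  have hfd : f ≠ d := fun h => hec (τ.injective (show τ e = τ c from h))
  have hfe : f ≠ e := he
  -- the three fixed points
  obtain ⟨x, y, z, hxy, hxz, hyz, hΔeq⟩ := Finset.card_eq_three.mp hΔ
  have hxΔ : x ∈ Δ := by rw [hΔeq]; simp
  have hyΔ : y ∈ Δ := by rw [hΔeq]; simp
  have hzΔ : z ∈ Δ := by rw [hΔeq]; simp
  have haΔ : a ∉ Δ := hmoved a ha
  have hbΔ : b ∉ Δ := hmoved b (by rw [hτb]; exact Ne.symm ha)
  have hcΔ : c ∉ Δ := hmoved c hc
  have hdΔ : d ∉ Δ := hmoved d (by rw [hτd']; exact Ne.symm hc)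
  have heΔ : e ∉ Δ := hmoved e he
  have hfΔ : f ∉ Δ := hmoved f (by rw [hτf]; exact Ne.symm he)
  have hne' : ∀ {u v : α}, u ∉ Δ → v ∈ Δ → u ≠ v := fun hu hv h => hu (h ▸ hv)
  have hl : [a, b, c, d, e, f, x, y, z].Nodup := by
    simp only [List.nodup_cons, List.mem_cons, List.not_mem_nil, or_false, not_or, not_false_eq_true,
      List.nodup_nil, and_true]
    exact ⟨⟨hab, Ne.symm hca, Ne.symm hda, Ne.symm hea, Ne.symm hfa, hne' haΔ hxΔ, hne' haΔ hyΔ, hne' haΔ hzΔ⟩,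
      ⟨Ne.symm hcb, Ne.symm hdb, Ne.symm heb, Ne.symm hfb, hne' hbΔ hxΔ, hne' hbΔ hyΔ, hne' hbΔ hzΔ⟩,
      ⟨Ne.symm hdc, Ne.symm hec, Ne.symm hfc, hne' hcΔ hxΔ, hne' hcΔ hyΔ, hne' hcΔ hzΔ⟩,
      ⟨Ne.symm hed, Ne.symm hfd, hne' hdΔ hxΔ, hne' hdΔ hyΔ, hne' hdΔ hzΔ⟩,
      ⟨Ne.symm hfe, hne' heΔ hxΔ, hne' heΔ hyΔ, hne' heΔ hzΔ⟩,
      ⟨hne' hfΔ hxΔ, hne' hfΔ hyΔ, hne' hfΔ hzΔ⟩, ⟨hxy, hxz⟩, hyz⟩
  have hall : ∀ w, w ∈ [a, b, c, d, e, f, x, y, z] := by
    have hcard : ([a, b, c, d, e, f, x, y, z] : List α).toFinset.card = 9 := by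
      rw [List.toFinset_card_of_nodup hl]; rfl
    have huniv := Finset.eq_univ_of_card _ (by rw [hcard, hn])
    intro w
    have : w ∈ ([a, b, c, d, e, f, x, y, z] : List α).toFinset := by rw [huniv]; exact Finset.mem_univ w
    simpa using this
  have hform := form3 τ hab (Ne.symm hca) (Ne.symm hda) (Ne.symm hea) (Ne.symm hfa) (Ne.symm hcb) (Ne.symm hdb)
    (Ne.symm heb) (Ne.symm hfb) (Ne.symm hdc) (Ne.symm hec) (Ne.symm hfc) (Ne.symm hed) (Ne.symm hfd) (Ne.symm hfe)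
    rfl hτb rfl hτd' rfl hτf (by
      intro w h1 h2 h3 h4 h5 h6
      apply hτfix
      have := hall w
      simp only [List.mem_cons, List.not_mem_nil, or_false] at this
      rcases this with h | h | h | h | h | h | h | h | h
      · exact absurd h h1
      · exact absurd h h2
      · exact absurd h h3
      · exact absurd h h4
      · exact absurd h h5
      · exact absurd h h6
      · rw [h]; exact hxΔ
      · rw [h]; exact hyΔ
      · rw [h]; exact hzΔ)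
  obtain ⟨g, hg, g1, g2, g3, g4⟩ := exists_smul_4 hG (a := a) (b := b) (c := c) (d := d) (a' := a) (b' := b) (c' := x)
    (d' := y) (by
      simp [hab, Ne.symm hca, Ne.symm hda, Ne.symm hcb, Ne.symm hdb, Ne.symm hdc]) (by
      simp [hab, hne' haΔ hxΔ, hne' haΔ hyΔ, hne' hbΔ hxΔ, hne' hbΔ hyΔ, hxy])
  have hτ' : g * τ * g⁻¹ = swap a b * swap x y * swap (g e) (g f) := by
    rw [hform]
    have e1 : g * (swap a b * swap c d * swap e f) * g⁻¹ = swap (g a) (g b) * swap (g c) (g d) * swap (g e) (g f) := by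
      rw [swap_apply_apply, swap_apply_apply, swap_apply_apply]; group
    rw [e1, g1, g2, g3, g4]
  have hsmem : ∀ w, w ≠ a → w ≠ b → w ≠ c → w ≠ d → g w ∈ [c, d, e, f, z] := by
    intro w h1 h2 h3 h4
    have := hall (g w)
    simp only [List.mem_cons, List.not_mem_nil, or_false] at this ⊢
    rcases this with h | h | h | h | h | h | h | h | h
    · exact absurd (g.injective (h.trans g1.symm)) h1
    · exact absurd (g.injective (h.trans g2.symm)) h2
    · exact Or.inl h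
    · exact Or.inr (Or.inl h)
    · exact Or.inr (Or.inr (Or.inl h))
    · exact Or.inr (Or.inr (Or.inr (Or.inl h)))
    · exact absurd (g.injective (h.trans g3.symm)) h3
    · exact absurd (g.injective (h.trans g4.symm)) h4
    · exact Or.inr (Or.inr (Or.inr (Or.inr h)))
  obtain ⟨m, i, j, k, l, hij, hik, hil, hjk, hjl, hkl, hm⟩ := core9_transport a b c d e f x y z hl
    (hsmem e (Ne.symm (Ne.symm hea)) heb hec hed) (hsmem f hfa hfb hfc hfd)
    (fun h => hfe (g.injective h).symm)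
  have hmem : swap i j * swap k l ∈ G := by
    rw [← hm, ← hform, ← hτ']
    exact G.pow_mem (G.mul_mem hτG (G.mul_mem (G.mul_mem hg hτG) (G.inv_mem hg))) m
  exact dt_done hG hprim (by omega) hij hik hil hjk hjl hkl hmem

end dt

end Cfsg.Agent.H20.JK
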