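import Mathlib

set_option autoImplicit false
set_option linter.unusedVariables false

namespace Cfsg.Agent.H20

theorem arith_core {n k x y a b : ℤ} {s : ℕ} (hn : 2 ≤ n) (hk1 : 1 ≤ k) (hkn : k < n) (hcop : IsCoprime k n)
    (h1 : x + y = k) (h2 : x + y * n = k ^ 2) (h3 : a + b * n = k ^ (2 * s + 1)) (h4 : a ^ 2 = x ^ (2 * s + 1))
    (hy : 0 ≤ y) (hx : 0 ≤ x) : k = 1 ∨ k = n - 1 := by
  -- coprimality of x and n
  have hcop2 : IsCoprime (k ^ 2) n := hcop.pow_left
  have hcopx : IsCoprime x n := by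
    have : x = k ^ 2 + (-y) * n := by linarith
    rw [this]
    exact (IsCoprime.add_mul_right_left_iff).2 hcop2
  have hxpos : 0 < x := by
    rcases hx.lt_or_eq with h | h
    · exact h
    · exfalso
      rw [← h] at hcopx
      have := hcopx.isUnit_of_dvd' (dvd_zero n) (dvd_refl n)
      rw [Int.isUnit_iff] at this
      omega
  -- x is a square
  have hs0 : x ^ s ≠ 0 := pow_ne_zero _ hxpos.ne'
  have h5 : a ^ 2 = x * (x ^ s) ^ 2 := by
    rw [h4]; ring
  have hdvd : x ^ s ∣ a := by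
    have : (x ^ s) ^ 2 ∣ a ^ 2 := ⟨x, by rw [h5]; ring⟩
    exact (Int.pow_dvd_pow_iff (by norm_num)).1 this
  obtain ⟨c, hc⟩ := hdvd
  have hxc : x = c ^ 2 := by
    have h6 : (x ^ s) ^ 2 * x = (x ^ s) ^ 2 * c ^ 2 := by
      calc (x ^ s) ^ 2 * x = a ^ 2 := by rw [h5]; ring
        _ = _ := by rw [hc]; ring
    exact mul_left_cancel₀ (pow_ne_zero _ hs0) h6
  obtain ⟨m, hm, hmc⟩ : ∃ m : ℤ, x = m ^ 2 ∧ 0 ≤ m := ⟨|c|, by rw [sq_abs]; exact hxc, abs_nonneg c⟩
  have hmpos : 0 < m := by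
    rcases hmc.lt_or_eq with h | h
    · exact h
    · exfalso
      rw [← h] at hm
      norm_num at hm
      omega
  have hcopm : IsCoprime m n := by
    rw [hm] at hcopx
    exact IsCoprime.of_isCoprime_of_dvd_left hcopx (dvd_pow_self m (by norm_num))
  -- a = ± m^t
  have h7 : a ^ 2 = (m ^ (2 * s + 1)) ^ 2 := by
    rw [h4, hm]; ring
  have hmk : m ≤ k := by nlinarith
  have hmod1 : (n : ℤ) ∣ k ^ 2 - m ^ 2 := ⟨y, by rw [← hm]; linarith⟩
  have hmod2 : (n : ℤ) ∣ (k ^ 2) ^ s - (m ^ 2) ^ s := by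
    exact hmod1.trans (sub_dvd_pow_sub_pow _ _ s)
  have hcopm' : IsCoprime n (m ^ (2 * s)) := (hcopm.pow_left (m := 2 * s)).symm
  rcases sq_eq_sq_iff_eq_or_eq_neg.1 h7 with h8 | h8
  · -- a = m^t
    left
    have h9 : (n : ℤ) ∣ (k - m) * m ^ (2 * s) := by
      have e : (k - m) * m ^ (2 * s) = b * n - k * ((k ^ 2) ^ s - (m ^ 2) ^ s) := by
        have e1 : b * n = k ^ (2 * s + 1) - a := by linarith
        rw [e1, h8]; ring
      rw [e]
      exact dvd_sub (Dvd.intro_left b rfl) (Dvd.dvd.mul_left hmod2 k)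
    have h10 : (n : ℤ) ∣ k - m := hcopm'.dvd_of_dvd_mul_right h9
    have h11 : k - m = 0 := by
      apply Int.eq_zero_of_abs_lt_dvd h10
      rw [abs_of_nonneg (by linarith)]
      linarith
    have h12 : k = m := by linarith
    have h13 : m ^ 2 ≤ m := by nlinarith
    nlinarith
  · -- a = - m^t
    right
    have h9 : (n : ℤ) ∣ (k + m) * m ^ (2 * s) := by
      have e : (k + m) * m ^ (2 * s) = b * n - k * ((k ^ 2) ^ s - (m ^ 2) ^ s) := by
        have e1 : b * n = k ^ (2 * s + 1) - a := by linarith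
        rw [e1, h8]; ring
      rw [e]
      exact dvd_sub (Dvd.intro_left b rfl) (Dvd.dvd.mul_left hmod2 k)
    have h10 : (n : ℤ) ∣ k + m := hcopm'.dvd_of_dvd_mul_right h9
    obtain ⟨q, hq⟩ := h10
    have hq1 : q = 1 := by
      have hq0 : 0 < q := by
        by_contra hcon
        push Not at hcon
        nlinarith
      have hq2 : q < 2 := by
        by_contra hcon
        push Not at hcon
        nlinarith
      omega
    rw [hq1, mul_one] at hq
    have hyeq : y = k - m ^ 2 := by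
      rw [hm] at h1
      linarith
    have hyn : y * (n - 1) = k ^ 2 - k := by
      nlinarith
    rw [hyeq, ← hq] at hyn
    have h14 : m * (1 - m) * (k + m) = 0 := by
      nlinarith
    have h15 : 1 - m = 0 := by
      have h16 : m * (k + m) ≠ 0 := mul_ne_zero hmpos.ne' (by positivity)
      have : (1 - m) * (m * (k + m)) = 0 := by linarith
      rcases mul_eq_zero.1 this with h | h
      · exact h
      · exact (h16 h).elim
    have h17 : m = 1 := by linarith
    rw [h17] at hq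
    linarith


section Design

open Matrix

variable {Ω : Type*} [Fintype Ω] [DecidableEq Ω]

/-- the all-one matrix -/
def allOne (Ω : Type*) : Matrix Ω Ω ℤ := Matrix.of fun _ _ => 1

theorem allOne_apply (a b : Ω) : allOne Ω a b = 1 := rfl

theorem allOne_mul_allOne : allOne Ω * allOne Ω = (Fintype.card Ω : ℤ) • allOne Ω := by
  ext a b
  simp [Matrix.mul_apply, allOne_apply]

/-- Powers and row sums. -/
theorem pow_mul_allOne {A : Matrix Ω Ω ℤ} {k : ℤ} (h : A * allOne Ω = k • allOne Ω) (s : ℕ) :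
    A ^ s * allOne Ω = k ^ s • allOne Ω := by
  induction s with
  | zero => simp
  | succ s ih =>
    rw [pow_succ, Matrix.mul_assoc, h, Matrix.mul_smul, ih, smul_smul, pow_succ, mul_comm]

theorem allOne_mul_transpose_pow {A : Matrix Ω Ω ℤ} {k : ℤ} (h : A * allOne Ω = k • allOne Ω) (s : ℕ) :
    allOne Ω * (Aᵀ) ^ s = k ^ s • allOne Ω := by
  have h1 := congrArg Matrix.transpose (pow_mul_allOne h s)
  rw [Matrix.transpose_mul, Matrix.transpose_smul, Matrix.transpose_pow] at h1
  have h2 : (allOne Ω)ᵀ = allOne Ω := rfl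
  rwa [h2] at h1

/-- the key identity -/
theorem pow_mul_transpose_pow {A : Matrix Ω Ω ℤ} {k x y : ℤ} (h : A * allOne Ω = k • allOne Ω)
    (hC : A * Aᵀ = x • (1 : Matrix Ω Ω ℤ) + y • allOne Ω) (s : ℕ) :
    ∃ c : ℤ, A ^ s * (Aᵀ) ^ s = x ^ s • (1 : Matrix Ω Ω ℤ) + c • allOne Ω := by
  induction s with
  | zero => exact ⟨0, by simp⟩
  | succ s ih =>
    obtain ⟨c, hc⟩ := ih
    refine ⟨x * c + y * k ^ s * k ^ s, ?_⟩
    have e : A ^ (s + 1) * (Aᵀ) ^ (s + 1) = A ^ s * (A * Aᵀ) * (Aᵀ) ^ s := by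
      rw [pow_succ A s, pow_succ' Aᵀ s]
      simp only [Matrix.mul_assoc]
    rw [e, hC, Matrix.mul_add, Matrix.add_mul, Matrix.mul_smul, Matrix.mul_smul, Matrix.mul_one,
      Matrix.smul_mul, Matrix.smul_mul, hc, pow_mul_allOne h, Matrix.smul_mul,
      allOne_mul_transpose_pow h]
    ext a b
    simp only [Matrix.add_apply, Matrix.smul_apply, smul_eq_mul, pow_succ]
    ring


/-- The core of the design argument. -/
theorem design_core {A : Matrix Ω Ω ℤ} {k x y a b : ℤ} {t : ℕ} (h2 : 2 ≤ Fintype.card Ω) (hrow : A * allOne Ω = k • allOne Ω)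
    (hC : A * Aᵀ = x • (1 : Matrix Ω Ω ℤ) + y • allOne Ω)
    (hM : A ^ t = a • (1 : Matrix Ω Ω ℤ) + b • allOne Ω) :
    a + b * Fintype.card Ω = k ^ t ∧ a ^ 2 = x ^ t := by
  have hcard : 1 < Fintype.card Ω := h2
  obtain ⟨u, v, huv⟩ := Fintype.exists_pair_of_one_lt_card hcard
  constructor
  · have h1 := pow_mul_allOne hrow t
    rw [hM, Matrix.add_mul, Matrix.smul_mul, Matrix.smul_mul, Matrix.one_mul, allOne_mul_allOne] at h1
    have h3 := congrFun (congrFun h1 u) u
    simp only [Matrix.add_apply, Matrix.smul_apply, allOne_apply, smul_eq_mul, mul_one] at h3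
    linarith
  · obtain ⟨c, hc⟩ := pow_mul_transpose_pow hrow hC t
    have hT : (Aᵀ) ^ t = a • (1 : Matrix Ω Ω ℤ) + b • allOne Ω := by
      rw [← Matrix.transpose_pow, hM]
      simp only [Matrix.transpose_add, Matrix.transpose_smul, Matrix.transpose_one]
      rfl
    rw [hT, hM] at hc
    have e : (a • (1 : Matrix Ω Ω ℤ) + b • allOne Ω) * (a • (1 : Matrix Ω Ω ℤ) + b • allOne Ω) =
        a ^ 2 • (1 : Matrix Ω Ω ℤ) + (2 * a * b + b ^ 2 * Fintype.card Ω) • allOne Ω := by
      rw [Matrix.add_mul, Matrix.mul_add, Matrix.mul_add, Matrix.smul_mul, Matrix.smul_mul, Matrix.smul_mul,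
        Matrix.smul_mul, Matrix.mul_smul, Matrix.mul_smul, Matrix.mul_smul, Matrix.mul_smul, Matrix.one_mul,
        Matrix.mul_one, Matrix.one_mul, allOne_mul_allOne]
      ext i j
      simp only [Matrix.add_apply, Matrix.smul_apply, smul_eq_mul]
      ring
    rw [e] at hc
    have h3 := congrFun (congrFun hc u) u
    have h4 := congrFun (congrFun hc u) v
    simp only [Matrix.add_apply, Matrix.smul_apply, allOne_apply, smul_eq_mul, mul_one, Matrix.one_apply_eq,
      Matrix.one_apply_ne huv, mul_zero, zero_add] at h3 h4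
    linarith

end Design

section Action

open Matrix

variable {Γ Ω : Type*} [Group Γ] [MulAction Γ Ω] [Fintype Ω] [DecidableEq Ω]

theorem odd_aut_orbit (h2 : ∀ a b c d : Ω, a ≠ b → c ≠ d → ∃ g : Γ, g • a = c ∧ g • b = d)
    (hn : 2 ≤ Fintype.card Ω) (α : MulAut Γ) {t : ℕ} (ht : Odd t) (hαt : α ^ t = 1) (o : Ω) (O : Finset Ω)
    (hO : ∀ h : Γ, h • o = o → ∀ z ∈ O, α h • z ∈ O)
    (hcop : Nat.Coprime O.card (Fintype.card Ω)) (hne : O.Nonempty) :
    O.card = 1 ∨ O.card = Fintype.card Ω - 1 := by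
  classical
  have hcard : 1 < Fintype.card Ω := hn
  have hex : ∀ a c : Ω, ∃ g : Γ, g • a = c := by
    intro a c
    obtain ⟨b, hb⟩ := Fintype.exists_ne_of_one_lt_card hcard a
    obtain ⟨d, hd⟩ := Fintype.exists_ne_of_one_lt_card hcard c
    obtain ⟨g, hg, -⟩ := h2 a b c d hb.symm hd.symm
    exact ⟨g, hg⟩
  let P : Ω → Ω → Prop := fun w v => ∃ h : Γ, h • o = v ∧ (α h)⁻¹ • w ∈ O
  have hwell : ∀ (h : Γ) (w v : Ω), h • o = v → (P w v ↔ (α h)⁻¹ • w ∈ O) := by
    intro h w v hv
    constructor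
    · rintro ⟨h', hh', hw⟩
      have hfix : (h⁻¹ * h') • o = o := by
        rw [mul_smul, hh', ← hv, inv_smul_smul]
      have h3 := hO _ hfix _ hw
      have e : α (h⁻¹ * h') • (α h')⁻¹ • w = (α h)⁻¹ • w := by
        rw [← mul_smul, map_mul, map_inv, mul_assoc, mul_inv_cancel, mul_one]
      rwa [e] at h3
    · intro hw
      exact ⟨h, hv, hw⟩
  let A : Matrix Ω Ω ℤ := Matrix.of fun w v => if P w v then (1 : ℤ) else 0
  have hA : ∀ w v, A w v = if P w v then (1 : ℤ) else 0 := fun _ _ => rfl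
  have hPinv : ∀ (g : Γ) (w v : Ω), P (α g • w) (g • v) ↔ P w v := by
    intro g w v
    obtain ⟨h, hh⟩ := hex o v
    rw [hwell h w v hh, hwell (g * h) (α g • w) (g • v) (by rw [mul_smul, hh])]
    have e : (α (g * h))⁻¹ • α g • w = (α h)⁻¹ • w := by
      rw [← mul_smul, map_mul, _root_.mul_inv_rev, mul_assoc, inv_mul_cancel, mul_one]
    rw [e]
  have hinv : ∀ (g : Γ) (w v : Ω), A (α g • w) (g • v) = A w v := by
    intro g w v
    rw [hA, hA]
    simp only [hPinv]
  have hbool : ∀ w v, A w v = 0 ∨ A w v = 1 := by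
    intro w v
    rw [hA]
    split_ifs
    · right; rfl
    · left; rfl
  -- column sums
  have hcol : ∀ v, ∑ w, A w v = (O.card : ℤ) := by
    intro v
    obtain ⟨h, hh⟩ := hex o v
    have h3 : ∀ w, A w v = if (α h)⁻¹ • w ∈ O then (1 : ℤ) else 0 := by
      intro w
      rw [hA]
      simp only [hwell h w v hh]
    simp only [h3]
    have h4 : ∑ w, (if (α h)⁻¹ • w ∈ O then (1 : ℤ) else 0) = ∑ z, (if z ∈ O then (1 : ℤ) else 0) :=
      Fintype.sum_equiv (MulAction.toPerm (α h)⁻¹) _ _ (fun w => rfl)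
    rw [h4]
    simp
  -- row sums
  have hrowinv : ∀ (g : Γ) (w : Ω), ∑ v, A (α g • w) v = ∑ v, A w v := by
    intro g w
    refine (Fintype.sum_equiv (MulAction.toPerm g) _ _ (fun v => ?_)).symm
    exact (hinv g w v).symm
  have hrowconst : ∀ w w' : Ω, ∑ v, A w v = ∑ v, A w' v := by
    intro w w'
    obtain ⟨g₀, hg₀⟩ := hex w' w
    have := hrowinv (α.symm g₀) w'
    rw [MulEquiv.apply_symm_apply, hg₀] at this
    exact this
  obtain ⟨u, u', huu'⟩ := Fintype.exists_pair_of_one_lt_card hcard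
  have hrow : ∀ w, ∑ v, A w v = (O.card : ℤ) := by
    intro w
    have h3 : ∑ w, ∑ v, A w v = ∑ v, ∑ w, A w v := Finset.sum_comm
    simp only [hcol] at h3
    have h4 : ∑ w' : Ω, ∑ v, A w' v = ∑ _w' : Ω, ∑ v, A w v :=
      Finset.sum_congr rfl (fun w' _ => hrowconst w' w)
    rw [h4] at h3
    simp only [Finset.sum_const, Finset.card_univ, nsmul_eq_mul] at h3
    have hpos : (Fintype.card Ω : ℤ) ≠ 0 := by
      have : 0 < Fintype.card Ω := by omega
      omega
    exact mul_left_cancel₀ hpos h3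
  have hAJ : A * allOne Ω = (O.card : ℤ) • allOne Ω := by
    ext w v
    simp only [Matrix.mul_apply, allOne_apply, mul_one, Matrix.smul_apply, smul_eq_mul]
    exact hrow w
  have hAtJ : Aᵀ * allOne Ω = (O.card : ℤ) • allOne Ω := by
    ext w v
    simp only [Matrix.mul_apply, allOne_apply, mul_one, Matrix.smul_apply, smul_eq_mul, Matrix.transpose_apply]
    exact hcol w
  -- A Aᵀ
  let C : Matrix Ω Ω ℤ := A * Aᵀ
  have hCe : ∀ w w', C w w' = ∑ v, A w v * A w' v := by
    intro w w'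
    simp only [C, Matrix.mul_apply, Matrix.transpose_apply]
  have hCinv : ∀ (g : Γ) (w w' : Ω), C (α g • w) (α g • w') = C w w' := by
    intro g w w'
    rw [hCe, hCe]
    refine (Fintype.sum_equiv (MulAction.toPerm g) _ _ (fun v => ?_)).symm
    show A w v * A w' v = A (α g • w) (g • v) * A (α g • w') (g • v)
    rw [hinv, hinv]
  set y : ℤ := C u u' with hy
  have hCoff : ∀ w w', w ≠ w' → C w w' = y := by
    intro w w' hne'
    obtain ⟨g₀, hg₁, hg₂⟩ := h2 u u' w w' huu' hne'
    have := hCinv (α.symm g₀) u u'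
    rw [MulEquiv.apply_symm_apply, hg₁, hg₂] at this
    exact this
  have hCdiag : ∀ w, C w w = (O.card : ℤ) := by
    intro w
    rw [hCe, ← hrow w]
    refine Finset.sum_congr rfl (fun v _ => ?_)
    rcases hbool w v with h | h <;> rw [h] <;> norm_num
  have hy0 : 0 ≤ y := by
    rw [hy, hCe]
    refine Finset.sum_nonneg (fun v _ => ?_)
    rcases hbool u v with h | h <;> rcases hbool u' v with h' | h' <;> rw [h, h'] <;> norm_num
  have hyk : y ≤ (O.card : ℤ) := by
    rw [hy, hCe, ← hrow u]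
    refine Finset.sum_le_sum (fun v _ => ?_)
    rcases hbool u v with h | h <;> rcases hbool u' v with h' | h' <;> rw [h, h'] <;> norm_num
  set x : ℤ := (O.card : ℤ) - y with hx
  have hC : A * Aᵀ = x • (1 : Matrix Ω Ω ℤ) + y • allOne Ω := by
    ext w w'
    show C w w' = _
    simp only [Matrix.add_apply, Matrix.smul_apply, allOne_apply, smul_eq_mul, mul_one]
    by_cases hww : w = w'
    · subst hww
      rw [hCdiag, Matrix.one_apply_eq, hx]
      ring
    · rw [hCoff w w' hww, Matrix.one_apply_ne hww]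
      ring
  have hsq : x + y * Fintype.card Ω = (O.card : ℤ) ^ 2 := by
    have h3 : (A * Aᵀ) * allOne Ω = (O.card : ℤ) ^ 2 • allOne Ω := by
      rw [Matrix.mul_assoc, hAtJ, Matrix.mul_smul, hAJ, smul_smul, pow_two]
    rw [hC, Matrix.add_mul, Matrix.smul_mul, Matrix.smul_mul, Matrix.one_mul, allOne_mul_allOne, smul_smul] at h3
    have h4 := congrFun (congrFun h3 u) u
    simp only [Matrix.add_apply, Matrix.smul_apply, allOne_apply, smul_eq_mul, mul_one] at h4
    linarith
  -- powers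
  have hpowinv : ∀ (s : ℕ) (g : Γ) (w v : Ω), (A ^ s) ((α ^ s) g • w) (g • v) = (A ^ s) w v := by
    intro s
    induction s with
    | zero =>
      intro g w v
      simp only [pow_zero, MulAut.one_apply, Matrix.one_apply, smul_left_cancel_iff]
    | succ s ih =>
      intro g w v
      rw [pow_succ A s, pow_succ α s, Matrix.mul_apply, Matrix.mul_apply]
      refine (Fintype.sum_equiv (MulAction.toPerm (α g)) _ _ (fun ξ => ?_)).symm
      show (A ^ s) w ξ * A ξ v = (A ^ s) (((α ^ s) * α) g • w) (α g • ξ) * A (α g • ξ) (g • v)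
      rw [hinv, MulAut.mul_apply, ih]
  have hMinv : ∀ (g : Γ) (w v : Ω), (A ^ t) (g • w) (g • v) = (A ^ t) w v := by
    intro g w v
    have := hpowinv t g w v
    rwa [hαt, MulAut.one_apply] at this
  set b : ℤ := (A ^ t) u u' with hb
  set a : ℤ := (A ^ t) u u - b with ha
  have hMoff : ∀ w w', w ≠ w' → (A ^ t) w w' = b := by
    intro w w' hne'
    obtain ⟨g₀, hg₁, hg₂⟩ := h2 u u' w w' huu' hne'
    rw [← hg₁, ← hg₂, hMinv]
  have hMdiag : ∀ w, (A ^ t) w w = a + b := by
    intro w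
    obtain ⟨g₀, hg₁⟩ := hex u w
    rw [← hg₁, hMinv, ha]
    ring
  have hM : A ^ t = a • (1 : Matrix Ω Ω ℤ) + b • allOne Ω := by
    ext w w'
    simp only [Matrix.add_apply, Matrix.smul_apply, allOne_apply, smul_eq_mul, mul_one]
    by_cases hww : w = w'
    · subst hww
      rw [hMdiag, Matrix.one_apply_eq]
      ring
    · rw [hMoff w w' hww, Matrix.one_apply_ne hww]
      ring
  obtain ⟨h3, h4⟩ := design_core hn hAJ hC hM
  obtain ⟨s, rfl⟩ := ht
  have hk1 : (1 : ℤ) ≤ (O.card : ℤ) := by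
    have : 1 ≤ O.card := hne.card_pos
    exact_mod_cast this
  have hkle : O.card ≤ Fintype.card Ω := Finset.card_le_univ O
  have hkne : O.card ≠ Fintype.card Ω := by
    intro h
    rw [h, Nat.coprime_self] at hcop
    omega
  have hkn : (O.card : ℤ) < (Fintype.card Ω : ℤ) := by
    have : O.card < Fintype.card Ω := lt_of_le_of_ne hkle hkne
    exact_mod_cast this
  have hcopZ : IsCoprime (O.card : ℤ) (Fintype.card Ω : ℤ) := Nat.isCoprime_iff_coprime.2 hcop
  have hn' : (2 : ℤ) ≤ (Fintype.card Ω : ℤ) := by exact_mod_cast hn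
  have hfin := arith_core hn' hk1 hkn hcopZ (by rw [hx]; ring) hsq h3 h4 hy0 (by rw [hx]; linarith)
  rcases hfin with h5 | h5
  · left; exact_mod_cast h5
  · right
    have : (O.card : ℤ) + 1 = Fintype.card Ω := by linarith
    have h6 : O.card + 1 = Fintype.card Ω := by exact_mod_cast this
    omega

end Action

end Cfsg.Agent.H20
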