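import Cfsg.Agent.Lib.H14.BO11
import Cfsg.Agent.Lib.H13.CommNil
import Cfsg.Agent.Lib.H20.TQ1
import Mathlib

/-! Abelian best offenders (without the exponent condition) are elementary for `p = 2`. -/

set_option autoImplicit false
set_option linter.unusedVariables false
set_option linter.style.haveILetI false
set_option linter.unusedSectionVars false

namespace Cfsg.Agent.H20.TH

open Cfsg Cfsg.Agent.H14
open Cfsg.Agent.H02 (offVal wSub tim_main)
open scoped commutatorElement

variable {G : Type*} [Group G] [Finite G] {V H K : Subgroup G}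

theorem wSub_le (hF : FFS 2 V H K) {A : Subgroup G} (hAH : A ≤ H) : wSub (V : Set G) A ≤ V := by
  apply (Subgroup.closure_le _).2
  rintro _ ⟨v, hv, a, ha, rfl⟩
  rw [commutatorElement_def]
  have h1 : a * v⁻¹ * a⁻¹ ∈ V := hF.conj_memV (hAH ha) (V.inv_mem hv)
  have e : v * a * v⁻¹ * a⁻¹ = v * (a * v⁻¹ * a⁻¹) := by group
  rw [e]
  exact V.mul_mem hv h1

theorem rel_mul_card {M L : Subgroup G} (h : M ≤ L) : M.relIndex L * Nat.card M = Nat.card L := by
  have h1 : Nat.card (M.subgroupOf L) = Nat.card M := Nat.card_congr (Subgroup.subgroupOfEquivOfLe h).toEquiv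
  have h2 := Subgroup.card_mul_index (M.subgroupOf L)
  rw [h1] at h2
  rw [mul_comm]
  exact h2

/-- An abelian `2`-group with the best-offender inequality is elementary abelian. -/
theorem elem_of_best (hF : FFS 2 V H K) : ∀ (n : ℕ) (A : Subgroup G), Nat.card A = n → A ≤ H → IsPGroup 2 A →
    (∀ a ∈ A, ∀ b ∈ A, a * b = b * a) → (∀ B : Subgroup G, B ≤ A → offVal V B ≤ offVal V A) →
    ∀ x ∈ A, x ^ 2 = 1 := by
  intro n
  induction n using Nat.strong_induction_on with
  | _ n ih =>
  intro A hn hAH hAp hAc hbest x hx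
  classical
  by_cases hbot : A = ⊥
  · rw [hbot] at hx
    rw [Subgroup.mem_bot.1 hx, one_pow]
  have hAV : A ≤ Subgroup.normalizer (V : Set G) := hAH.trans hF.hHV
  have hab : ⁅A, A⁆ ≤ Subgroup.centralizer (V : Set G) := by
    rw [Subgroup.commutator_le]
    intro g hg h hh
    have h1 : ⁅g, h⁆ = 1 := commutatorElement_eq_one_iff_commute.mpr (hAc g hg h hh)
    rw [h1]
    exact Subgroup.one_mem _
  obtain ⟨h1, h2⟩ := tim_main V A hF.hV hAV hab hbest (V : Set G) subset_rfl
  obtain ⟨W₁, hW₁⟩ : ∃ W₁, W₁ = wSub (V : Set G) A := ⟨_, rfl⟩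
  rw [← hW₁] at h1 h2
  have hW₁V : W₁ ≤ V := by
    rw [hW₁]; exact wSub_le hF hAH
  obtain ⟨A', hA'⟩ : ∃ A', A' = A ⊓ Subgroup.centralizer (W₁ : Set G) := ⟨_, rfl⟩
  rw [← hA'] at h1 h2
  have hA'A : A' ≤ A := by
    rw [hA']; exact inf_le_left
  have hA'H : A' ≤ H := hA'A.trans hAH
  -- `A'` is elementary
  have hA'e : ∀ y ∈ A', y ^ 2 = 1 := by
    intro y hy
    have hyW : y ∈ Subgroup.centralizer (W₁ : Set G) := by
      rw [hA'] at hy; exact hy.2
    apply hF.eq_one_of_comm_V (H.pow_mem (hA'H hy) 2)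
    intro v hv
    have hc : ⁅v, y⁆ ∈ W₁ := by
      rw [hW₁]
      exact Subgroup.subset_closure ⟨v, hv, y, hA'A hy, rfl⟩
    have hcV := hW₁V hc
    have hc2 : ⁅v, y⁆ ^ 2 = 1 := hF.pow_V hcV
    have hcy : ⁅v, y⁆ * y = y * ⁅v, y⁆ := Subgroup.mem_centralizer_iff.1 hyW _ hc
    have hv' : y * v * y⁻¹ = ⁅v, y⁆ * v := by
      have e1 : ⁅v, y⁆ * v = v * ⁅v, y⁆ := hF.comm_V hcV hv
      have e2 : ⁅v, y⁆ * ⁅v, y⁆ = 1 := by rw [← pow_two, hc2]
      rw [commutatorElement_def] at e1 e2 ⊢
      have h3 : v * y * v⁻¹ * y⁻¹ = y * v * y⁻¹ * v⁻¹ := by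
        have := e2
        calc v * y * v⁻¹ * y⁻¹ = (y * v * y⁻¹ * v⁻¹) * ((v * y * v⁻¹ * y⁻¹) * (v * y * v⁻¹ * y⁻¹)) := by group
          _ = y * v * y⁻¹ * v⁻¹ := by rw [e2, mul_one]
      rw [h3]
      group
    have h5 : y ^ 2 * v * (y ^ 2)⁻¹ = v := by
      have h6 : y ^ 2 * v * (y ^ 2)⁻¹ = y * (y * v * y⁻¹) * y⁻¹ := by
        rw [pow_two]; group
      rw [h6, hv']
      calc y * (⁅v, y⁆ * v) * y⁻¹ = (y * ⁅v, y⁆) * v * y⁻¹ := by group
        _ = (⁅v, y⁆ * y) * v * y⁻¹ := by rw [hcy]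
        _ = ⁅v, y⁆ * (y * v * y⁻¹) := by group
        _ = ⁅v, y⁆ * (⁅v, y⁆ * v) := by rw [hv']
        _ = (⁅v, y⁆ ^ 2) * v := by rw [pow_two]; group
        _ = v := by rw [hc2, one_mul]
    calc v * y ^ 2 = (y ^ 2 * v * (y ^ 2)⁻¹) * y ^ 2 := by rw [h5]
      _ = y ^ 2 * v := by group
  have hA'best : IsBestOffenderOn 2 V A' := by
    refine ⟨fun B hB => ?_, ?_, fun a ha => ?_⟩
    · have h3 := hbest B (hB.trans hA'A)
      rw [← h1] at h3
      exact h3
    · rw [Subgroup.commutator_le]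
      intro g hg h hh
      have h3 : ⁅g, h⁆ = 1 := commutatorElement_eq_one_iff_commute.mpr (hAc g (hA'A hg) h (hA'A hh))
      rw [h3]
      exact Subgroup.one_mem _
    · rw [hA'e a ha]
      exact Subgroup.one_mem _
  -- `A'` is nontrivial
  have hA'ne : A' ≠ ⊥ := by
    intro hA'b
    rw [hA'b] at h2
    have h3 : V ⊓ Subgroup.centralizer (((⊥ : Subgroup G) : Subgroup G) : Set G) = V := by
      apply inf_eq_left.mpr
      intro v _
      refine Subgroup.mem_centralizer_iff.mpr fun c hc => ?_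
      have : c = 1 := hc
      rw [this, one_mul, mul_one]
    rw [h3] at h2
    -- `W₁` is trivial
    have hW₁p : IsPGroup 2 W₁ := (Cfsg.Agent.H02.ea_isPGroup hF.hV).to_le hW₁V
    have hAW : A ≤ Subgroup.normalizer (W₁ : Set G) := by
      intro g hg
      apply Cfsg.Agent.H20.mem_normalizer_of_conj_le
      have hle : W₁ ≤ W₁.comap (MulAut.conj g).toMonoidHom := by
        conv_lhs => rw [hW₁]
        apply (Subgroup.closure_le _).2
        rintro _ ⟨v, hv, a, ha, rfl⟩
        change g * ⁅v, a⁆ * g⁻¹ ∈ W₁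
        rw [hW₁]
        apply Subgroup.subset_closure
        refine ⟨g * v * g⁻¹, hF.conj_memV (hAH hg) hv, a, ha, ?_⟩
        rw [commutatorElement_def, commutatorElement_def]
        have h4 : g * a * g⁻¹ = a := by rw [hAc g hg a ha]; group
        have h5 : a * g⁻¹ = g⁻¹ * a := by
          rw [eq_inv_mul_iff_mul_eq, ← mul_assoc, hAc g hg a ha]; group
        calc g * v * g⁻¹ * a * (g * v * g⁻¹)⁻¹ * a⁻¹ = g * v * (g⁻¹ * a) * g * v⁻¹ * g⁻¹ * a⁻¹ := by group
          _ = g * v * (a * g⁻¹) * g * v⁻¹ * g⁻¹ * a⁻¹ := by rw [h5]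
          _ = g * (v * a * v⁻¹ * a⁻¹) * g⁻¹ * (g * a * g⁻¹) * a⁻¹ := by group
          _ = g * (v * a * v⁻¹ * a⁻¹) * g⁻¹ := by rw [h4]; group
      exact fun y hy => hle hy
    have hPp : IsPGroup 2 (W₁ ⊔ A : Subgroup G) := IsPGroup.to_sup_of_normal_left' hW₁p hAp hAW
    have hle : W₁ ≤ ⁅W₁, W₁ ⊔ A⁆ := by
      conv_lhs => rw [hW₁]
      apply (Subgroup.closure_le _).2
      rintro _ ⟨v, hv, a, ha, rfl⟩
      have hvm : v ∈ W₁ ⊔ (V ⊓ Subgroup.centralizer (A : Set G)) := h2.le hv
      have hnorm : V ⊓ Subgroup.centralizer (A : Set G) ≤ Subgroup.normalizer (W₁ : Set G) := by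
        intro z hz
        apply Cfsg.Agent.H20.mem_normalizer_of_conj_le
        intro w hw
        have e : z * w * z⁻¹ = w := by
          rw [hF.comm_V hz.1 (hW₁V hw)]; group
        rw [e]; exact hw
      obtain ⟨w', hw', z, hz, rfl⟩ := Cfsg.Agent.H01.exists_mul_of_mem_sup hnorm hvm
      have hza : z * a = a * z := (Subgroup.mem_centralizer_iff.1 hz.2 a ha).symm
      have e : ⁅w' * z, a⁆ = ⁅w', a⁆ := by
        rw [commutatorElement_def, commutatorElement_def]
        calc w' * z * a * (w' * z)⁻¹ * a⁻¹ = w' * (z * a) * z⁻¹ * w'⁻¹ * a⁻¹ := by group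
          _ = w' * (a * z) * z⁻¹ * w'⁻¹ * a⁻¹ := by rw [hza]
          _ = _ := by group
      rw [e]
      exact Subgroup.commutator_mem_commutator hw' (Subgroup.mem_sup_right ha)
    have hWbot := Cfsg.Agent.H13.eq_bot_of_le_commutator hPp le_sup_left hle
    -- so `A` is trivial
    apply hbot
    rw [eq_bot_iff]
    intro g hg
    apply Subgroup.mem_bot.2
    apply hF.eq_one_of_comm_V (hAH hg)
    intro v hv
    have hc : ⁅v, g⁆ ∈ W₁ := by
      rw [hW₁]
      exact Subgroup.subset_closure ⟨v, hv, g, hg, rfl⟩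
    rw [hWbot] at hc
    have hc1 : ⁅v, g⁆ = 1 := Subgroup.mem_bot.1 hc
    exact commutatorElement_eq_one_iff_commute.1 hc1
  -- a transvection in `A'`
  obtain ⟨k, B, hB, -, hsup⟩ := hF.decomp _ A' rfl hA'H hA'best
  have hk : k ≠ 0 := by
    rintro rfl
    apply hA'ne
    rw [← hsup, eq_bot_iff]
    exact iSup_le (fun i => i.elim0)
  obtain ⟨hB1, hB2, hB3, hB4⟩ := hB ⟨0, Nat.pos_of_ne_zero hk⟩
  obtain ⟨a, hBa, ha⟩ := tv_of_min hF (hB1.trans hA'H) hB2 hB3 hB4
  obtain ⟨-, -, hrelV⟩ := hF.min_facts (hB1.trans hA'H) hB2 hB3 hB4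
  rw [hBa] at hB1 hrelV
  have haA : a ∈ A := hA'A (hB1 (Subgroup.mem_zpowers a))
  obtain ⟨b, u, w, c, hP⟩ := exists_PD_of_tv hF ha
  have ha2 : a ^ 2 = 1 := ha.pow
  have hwV : w ∈ V := hP.wV hF
  have huV : u ∈ V := hP.uV hF
  have hmoves := hP.a_moves_w hF
  have hu2 : u ^ 2 = 1 := hF.pow_V huV
  have hw2 : w ^ 2 = 1 := hF.pow_V hwV
  have hzu : Subgroup.zpowers u = tvL V a := hP.zp_a hF
  -- `A₂`
  obtain ⟨A₂, hA₂⟩ : ∃ A₂, A₂ = A ⊓ Subgroup.centralizer (Subgroup.zpowers w : Set G) := ⟨_, rfl⟩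
  have hA₂A : A₂ ≤ A := by
    rw [hA₂]; exact inf_le_left
  have hmemA₂ : ∀ y ∈ A, y * w = w * y → y ∈ A₂ := by
    intro y hy hyw
    rw [hA₂]
    refine ⟨hy, Subgroup.mem_centralizer_iff.2 ?_⟩
    rintro _ ⟨m, rfl⟩
    exact ((Commute.zpow_left hyw.symm m) : w ^ m * y = y * w ^ m)
  have hA₂w : ∀ y ∈ A₂, y * w = w * y := by
    intro y hy
    rw [hA₂] at hy
    exact (Subgroup.mem_centralizer_iff.1 hy.2 w (Subgroup.mem_zpowers w)).symm
  have haA₂ : a ∉ A₂ := fun h => hmoves (hA₂w a h)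
  -- every element of `A` fixes `u`, moves `w` by at most `u`
  have hcov : ∀ x ∈ A, x * w = w * x ∨ (x * a) * w = w * (x * a) := by
    intro x hx
    have hxa : x * a = a * x := hAc x hx a haA
    have hxH := hAH hx
    -- `x` normalizes `⟨a⟩`
    have hxz : x ∈ Subgroup.normalizer (Subgroup.zpowers a : Set G) := by
      apply Cfsg.Agent.H20.mem_normalizer_of_conj_le
      intro y hy
      have e : x * y * x⁻¹ = y := by
        rw [hAc x hx y (hA'A (hB1 hy))]; group
      rw [e]; exact hy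
    have hxE : x ∈ Subgroup.normalizer ((ec K a : Subgroup G) : Set G) := by
      have h3 : x ∈ Subgroup.normalizer ((kc K a : Subgroup G) : Set G) :=
        conj_normalizer_comm (hF.hKn hxH) hxz
      apply Cfsg.Agent.H20.mem_normalizer_of_conj_le
      have hle : ec K a ≤ (ec K a).comap (MulAut.conj x).toMonoidHom := by
        apply sup_le
        · intro y hy
          exact Subgroup.mem_sup_left ((Subgroup.mem_normalizer_iff.1 h3 y).1 hy)
        · intro y hy
          exact Subgroup.mem_sup_right ((Subgroup.mem_normalizer_iff.1 hxz y).1 hy)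
      exact fun y hy => hle hy
    have hxW := norm_wc hF hxH hxE
    have hwc : wc V K a = tvL V a ⊔ tvL V b := hP.wc_eq hF
    have hwW : w ∈ wc V K a := by
      rw [hwc]; exact Subgroup.mem_sup_right hP.hw
    have huW : u ∈ wc V K a := by
      rw [hwc]; exact Subgroup.mem_sup_left hP.hu
    have hy := (Subgroup.mem_normalizer_iff.1 hxW w).1 hwW
    -- the fixed points of `a` on the plane
    obtain ⟨M, hM⟩ : ∃ M, M = wc V K a ⊓ Subgroup.centralizer (Subgroup.zpowers a : Set G) := ⟨_, rfl⟩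
    have hcardW : Nat.card (wc V K a) = 2 ^ 2 := hP.card_wc hF
    have huM : u ∈ M := by
      rw [hM]
      refine ⟨huW, Subgroup.mem_centralizer_iff.2 ?_⟩
      rintro _ ⟨m, rfl⟩
      exact ((Commute.zpow_left (hP.au hF) m) : a ^ m * u = u * a ^ m)
    have hwM : w ∉ M := by
      intro h
      rw [hM] at h
      have := Subgroup.mem_centralizer_iff.1 h.2 a (Subgroup.mem_zpowers a)
      exact hmoves this
    have hMcard : Nat.card M = 2 := by
      have hMle : M ≤ wc V K a := by
        rw [hM]; exact inf_le_left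
      have h3 : (V ⊓ Subgroup.centralizer (Subgroup.zpowers a : Set G)).relIndex (wc V K a) ≤ 2 := by
        rw [← hrelV]
        exact Subgroup.relIndex_le_of_le_right (hP.wc_le_V hF) (by rw [hrelV]; norm_num)
      have h4 : M.relIndex (wc V K a) = (V ⊓ Subgroup.centralizer (Subgroup.zpowers a : Set G)).relIndex (wc V K a) := by
        have e : M = (V ⊓ Subgroup.centralizer (Subgroup.zpowers a : Set G)) ⊓ wc V K a := by
          rw [hM]
          apply le_antisymm
          · rintro y ⟨hy1, hy2⟩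
            exact ⟨⟨hP.wc_le_V hF hy1, hy2⟩, hy1⟩
          · rintro y ⟨⟨-, hy2⟩, hy1⟩
            exact ⟨hy1, hy2⟩
        rw [e, Subgroup.inf_relIndex_right]
      have h5 : M.relIndex (wc V K a) * Nat.card M = 2 ^ 2 := by
        rw [← hcardW]
        exact rel_mul_card hMle
      rw [← h4] at h3
      have h6 : M.relIndex (wc V K a) ≠ 1 := by
        intro h7
        rw [h7, one_mul] at h5
        have h8 : M = wc V K a := Subgroup.eq_of_le_of_card_ge hMle (by rw [h5, hcardW])
        apply hwM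
        rw [h8]
        exact hwW
      have h7 : M.relIndex (wc V K a) ≠ 0 := by
        intro h8
        rw [h8] at h5
        omega
      have h8 : M.relIndex (wc V K a) = 2 := by omega
      rw [h8] at h5
      omega
    have hMu : M = Subgroup.zpowers u := by
      symm
      apply Subgroup.eq_of_le_of_card_ge (Subgroup.zpowers_le.2 huM)
      rw [hMcard, Nat.card_zpowers, hP.ordu hF]
    -- elements of `⟨u⟩`
    have hzpu : ∀ z ∈ Subgroup.zpowers u, z = 1 ∨ z = u := by
      intro z hz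
      have hcz : Nat.card (Subgroup.zpowers u) = 2 := by
        rw [Nat.card_zpowers, hP.ordu hF]
      obtain ⟨n, rfl⟩ := mem_pow_of_prime_card hcz (Subgroup.mem_zpowers u) hP.hu1 hz
      rcases Nat.even_or_odd' n with ⟨m, rfl | rfl⟩
      · left
        rw [pow_mul, hu2, one_pow]
      · right
        rw [pow_succ, pow_mul, hu2, one_pow, one_mul]
    have hxu : x * u * x⁻¹ = u := by
      have h3 : x ∈ Subgroup.normalizer ((tvL V a : Subgroup G) : Set G) :=
        conj_normalizer_comm (hF.hHV hxH) hxz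
      have h4 := (Subgroup.mem_normalizer_iff.1 h3 u).1 hP.hu
      rw [← hzu] at h4
      rcases hzpu _ h4 with h5 | h5
      · exfalso
        apply hP.hu1
        have h6 : x * u * x⁻¹ * x = x := by rw [h5, one_mul]
        have h7 : x * u = x := by
          calc x * u = x * u * x⁻¹ * x := by group
            _ = x := h6
        exact mul_eq_left.1 h7
      · exact h5
    obtain ⟨d, hd⟩ : ∃ d, d = x * w * x⁻¹ * w⁻¹ := ⟨_, rfl⟩
    have hdM : d ∈ M := by
      rw [hM]
      refine ⟨?_, Subgroup.mem_centralizer_iff.2 ?_⟩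
      · rw [hd]
        exact Subgroup.mul_mem _ hy (Subgroup.inv_mem _ hwW)
      · rintro _ ⟨m, rfl⟩
        have hcomm : a * d = d * a := by
          have hyV : x * w * x⁻¹ ∈ V := hF.conj_memV hxH hwV
          have e1 : a * (x * w * x⁻¹) * a⁻¹ = u * (x * w * x⁻¹) := by
            calc a * (x * w * x⁻¹) * a⁻¹ = (a * x) * w * (a * x)⁻¹ := by group
              _ = (x * a) * w * (x * a)⁻¹ := by rw [hxa]
              _ = x * (a * w * a⁻¹) * x⁻¹ := by group
              _ = x * (u * w) * x⁻¹ := by rw [hP.hau]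
              _ = (x * u * x⁻¹) * (x * w * x⁻¹) := by group
              _ = u * (x * w * x⁻¹) := by rw [hxu]
          have e2 : a * w⁻¹ * a⁻¹ = (u * w)⁻¹ := by
            rw [← hP.hau]; group
          have e3 : a * d * a⁻¹ = d := by
            rw [hd]
            calc a * (x * w * x⁻¹ * w⁻¹) * a⁻¹ = (a * (x * w * x⁻¹) * a⁻¹) * (a * w⁻¹ * a⁻¹) := by group
              _ = u * (x * w * x⁻¹) * (u * w)⁻¹ := by rw [e1, e2]
              _ = u * (x * w * x⁻¹) * (w⁻¹ * u⁻¹) := by group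
              _ = u * ((x * w * x⁻¹) * w⁻¹) * u⁻¹ := by group
              _ = ((x * w * x⁻¹) * w⁻¹) * u * u⁻¹ := by
                rw [hF.comm_V huV (V.mul_mem hyV (V.inv_mem hwV))]
              _ = x * w * x⁻¹ * w⁻¹ := by group
          calc a * d = a * d * a⁻¹ * a := by group
            _ = d * a := by rw [e3]
        exact ((Commute.zpow_left hcomm m) : a ^ m * d = d * a ^ m)
    rw [hMu] at hdM
    rcases hzpu d hdM with h3 | h3
    · left
      rw [hd] at h3
      have h4 : x * w * x⁻¹ = w := by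
        rw [mul_inv_eq_one] at h3; exact h3
      calc x * w = (x * w * x⁻¹) * x := by group
        _ = w * x := by rw [h4]
    · right
      rw [hd] at h3
      have h4 : x * w * x⁻¹ = u * w := by
        rw [← h3]; group
      have h5 : (x * a) * w * (x * a)⁻¹ = w := by
        calc (x * a) * w * (x * a)⁻¹ = x * (a * w * a⁻¹) * x⁻¹ := by group
          _ = x * (u * w) * x⁻¹ := by rw [hP.hau]
          _ = (x * u * x⁻¹) * (x * w * x⁻¹) := by group
          _ = u * (u * w) := by rw [hxu, h4]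
          _ = u ^ 2 * w := by rw [pow_two]; group
          _ = w := by rw [hu2, one_mul]
      calc (x * a) * w = ((x * a) * w * (x * a)⁻¹) * (x * a) := by group
        _ = w * (x * a) := by rw [h5]
  -- the value is unchanged by adding `a`
  have hkey : ∀ B : Subgroup G, B ≤ A₂ → offVal V (B ⊔ Subgroup.zpowers a) = offVal V B := by
    intro B hB
    have haB : a ∉ B := fun h => haA₂ (hB h)
    have hc1 := card_sup_zpowers_of_notMem (p := 2) haB ha2 (fun b hb => hAc a haA b (hA₂A (hB hb)))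
    obtain ⟨L, hL⟩ : ∃ L, L = V ⊓ Subgroup.centralizer (B : Set G) := ⟨_, rfl⟩
    obtain ⟨Ca, hCa⟩ : ∃ Ca, Ca = V ⊓ Subgroup.centralizer (Subgroup.zpowers a : Set G) := ⟨_, rfl⟩
    have hLV : L ≤ V := by
      rw [hL]; exact inf_le_left
    have hcen : V ⊓ Subgroup.centralizer ((B ⊔ Subgroup.zpowers a : Subgroup G) : Set G) = Ca ⊓ L := by
      rw [hCa, hL]
      ext v
      constructor
      · rintro ⟨hv1, hv2⟩
        refine ⟨⟨hv1, Subgroup.centralizer_le (le_sup_right : Subgroup.zpowers a ≤ B ⊔ Subgroup.zpowers a) hv2⟩,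
          ⟨hv1, Subgroup.centralizer_le (le_sup_left : B ≤ B ⊔ Subgroup.zpowers a) hv2⟩⟩
      · rintro ⟨⟨hv1, hv2⟩, ⟨-, hv3⟩⟩
        refine ⟨hv1, Subgroup.mem_centralizer_iff.2 ?_⟩
        have hle : B ⊔ Subgroup.zpowers a ≤ Subgroup.centralizer ({v} : Set G) := by
          apply sup_le
          · intro g hg
            exact Subgroup.mem_centralizer_singleton_iff.2 (Subgroup.mem_centralizer_iff.1 hv3 g hg)
          · intro g hg
            exact Subgroup.mem_centralizer_singleton_iff.2 (Subgroup.mem_centralizer_iff.1 hv2 g hg)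
        intro g hg
        exact Subgroup.mem_centralizer_singleton_iff.1 (hle hg)
    have hwL : w ∈ L := by
      rw [hL]
      refine ⟨hwV, Subgroup.mem_centralizer_iff.2 ?_⟩
      intro g hg
      exact hA₂w g (hB hg)
    have hwCa : w ∉ Ca := by
      intro h
      rw [hCa] at h
      exact hmoves (Subgroup.mem_centralizer_iff.1 h.2 a (Subgroup.mem_zpowers a))
    have hrel1 : Ca.relIndex V = 2 := by
      rw [hCa]; exact hrelV
    have h3 : Ca.relIndex L ≤ 2 := by
      rw [← hrel1]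
      exact Subgroup.relIndex_le_of_le_right hLV (by rw [hrel1]; norm_num)
    have h4 := rel_mul_card (M := Ca ⊓ L) (L := L) inf_le_right
    rw [Subgroup.inf_relIndex_right] at h4
    have h5 : Ca.relIndex L ≠ 0 := by
      intro h6
      rw [h6, zero_mul] at h4
      exact (Nat.card_pos (α := L)).ne h4
    have h6 : Ca.relIndex L ≠ 1 := by
      intro h7
      rw [Subgroup.relIndex_eq_one] at h7
      exact hwCa (h7 hwL)
    have h7 : Ca.relIndex L = 2 := by omega
    rw [h7] at h4
    unfold offVal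
    rw [hcen, hc1, ← hL, ← h4]
    ring
  have hAsup : A = A₂ ⊔ Subgroup.zpowers a := by
    apply le_antisymm
    · intro x hx
      rcases hcov x hx with h | h
      · exact Subgroup.mem_sup_left (hmemA₂ x hx h)
      · have h1' := hmemA₂ (x * a) (A.mul_mem hx haA) h
        have e : x = (x * a) * a⁻¹ := by group
        rw [e]
        exact Subgroup.mul_mem _ (Subgroup.mem_sup_left h1') (Subgroup.mem_sup_right (Subgroup.inv_mem _ (Subgroup.mem_zpowers a)))
    · apply sup_le hA₂A
      exact Subgroup.zpowers_le.2 haA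
  have hval : offVal V A = offVal V A₂ := by
    conv_lhs => rw [hAsup]
    exact hkey A₂ le_rfl
  have hbest₂ : ∀ B : Subgroup G, B ≤ A₂ → offVal V B ≤ offVal V A₂ := by
    intro B hB
    rw [← hkey B hB, ← hval]
    apply hbest
    apply sup_le (hB.trans hA₂A)
    exact Subgroup.zpowers_le.2 haA
  have hlt : Nat.card A₂ < n := by
    rw [← hn]
    refine lt_of_le_of_ne (Subgroup.card_le_of_le hA₂A) ?_
    intro h
    have : A₂ = A := Subgroup.eq_of_le_of_card_ge hA₂A h.ge
    rw [this] at haA₂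
    exact haA₂ haA
  have hI := ih _ hlt A₂ rfl (hA₂A.trans hAH) (hAp.to_le hA₂A)
    (fun a' ha' b' hb' => hAc a' (hA₂A ha') b' (hA₂A hb')) hbest₂
  rcases hcov x hx with h | h
  · exact hI x (hmemA₂ x hx h)
  · have h3 := hI (x * a) (hmemA₂ (x * a) (A.mul_mem hx haA) h)
    have hxa : x * a = a * x := hAc x hx a haA
    rw [(show Commute x a from hxa).mul_pow, ha2, mul_one] at h3
    exact h3

end Cfsg.Agent.H20.TH
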