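import Cfsg.Agent.Lib.H20.TH1
import Cfsg.Agent.Lib.H01.Solv2
import Mathlib

/-! Normal closure of the abelian Thompson subgroup modulo the centralizer of `Z(T)`. -/

set_option autoImplicit false
set_option linter.unusedVariables false
set_option linter.style.haveILetI false
set_option linter.unusedSectionVars false

namespace Cfsg.Agent.H20.TH

open Cfsg Cfsg.Agent.H14
open Cfsg.Agent.H02 (offVal)
open Matrix MatrixGroups

section sl2

def idx3 (v : Fin 2 → ZMod 2) : Fin 3 :=
  if v 0 = 1 ∧ v 1 = 0 then 0 else if v 0 = 0 ∧ v 1 = 1 then 1 else 2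

def vec3 : Fin 3 → (Fin 2 → ZMod 2) := ![![1,0],![0,1],![1,1]]

def fn3 (A : SL(2, ZMod 2)) (i : Fin 3) : Fin 3 := idx3 ((A : Matrix (Fin 2) (Fin 2) (ZMod 2)).mulVec (vec3 i))

theorem fn3_one : ∀ i, fn3 1 i = i := by decide +kernel
theorem fn3_mul : ∀ A B : SL(2, ZMod 2), ∀ i, fn3 (A * B) i = fn3 A (fn3 B i) := by decide +kernel
theorem fn3_inj : ∀ A B : SL(2, ZMod 2), (∀ i, fn3 A i = fn3 B i) → A = B := by decide +kernel
theorem card_sl : Fintype.card (SL(2, ZMod 2)) = 6 := by decide +kernel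
theorem card_p3 : Fintype.card (Equiv.Perm (Fin 3)) = 6 := by decide +kernel

/-- The action on the three nonzero vectors. -/
def slHom : SL(2, ZMod 2) →* Equiv.Perm (Fin 3) where
  toFun A :=
    { toFun := fn3 A
      invFun := fn3 A⁻¹
      left_inv := fun i => by rw [← fn3_mul, inv_mul_cancel, fn3_one]
      right_inv := fun i => by rw [← fn3_mul, mul_inv_cancel, fn3_one] }
  map_one' := by
    ext i
    exact congrArg _ (fn3_one i)
  map_mul' := fun A B => by
    ext i
    exact congrArg _ (fn3_mul A B i)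

/-- `SL₂(2)` is the symmetric group of degree 3. -/
noncomputable def slEquiv : SL(2, ZMod 2) ≃* Equiv.Perm (Fin 3) :=
  MulEquiv.ofBijective slHom
    (by
      rw [Fintype.bijective_iff_injective_and_card]
      constructor
      · intro A B h
        apply fn3_inj
        intro i
        exact congrArg (fun σ : Equiv.Perm (Fin 3) => σ i) h
      · rw [card_sl, card_p3])

end sl2

section internal

variable {G : Type*} [Group G] [Finite G]

/-- Direct product decomposition into copies of `S₃`. -/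
theorem exists_iso_pi {ι : Type*} [Finite ι] [Nonempty ι] (E : ι → Subgroup G) (H : Subgroup G)
    (hN : ∀ i, H ≤ Subgroup.normalizer ((E i : Subgroup G) : Set G)) (hind : iSupIndep E) (hsup : (⨆ i, E i) = H)
    (hiso : ∀ i, Nonempty (↥(E i) ≃* SL(2, ZMod 2))) :
    ∃ n : ℕ, 1 ≤ n ∧ Nonempty (↥H ≃* (Fin n → Equiv.Perm (Fin 3))) := by
  classical
  haveI := Fintype.ofFinite ι
  have hEH : ∀ i, E i ≤ H := fun i => by
    rw [← hsup]; exact le_iSup E i
  have hcomm : Pairwise fun i j : ι => ∀ x y : G, x ∈ E i → y ∈ E j → Commute x y := by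
    intro i j hij x y hx hy
    have hd : Disjoint (E i) (E j) := hind.pairwiseDisjoint hij
    have h1 : x * y * x⁻¹ * y⁻¹ ∈ E j := by
      have h2 : x * y * x⁻¹ ∈ E j := (Subgroup.mem_normalizer_iff.1 (hN j (hEH i hx)) y).1 hy
      exact Subgroup.mul_mem _ h2 (Subgroup.inv_mem _ hy)
    have h3 : x * y * x⁻¹ * y⁻¹ ∈ E i := by
      have h2 : y * x⁻¹ * y⁻¹ ∈ E i :=
        (Subgroup.mem_normalizer_iff.1 (hN i (hEH j hy)) x⁻¹).1 (Subgroup.inv_mem _ hx)
      have e : x * y * x⁻¹ * y⁻¹ = x * (y * x⁻¹ * y⁻¹) := by group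
      rw [e]
      exact Subgroup.mul_mem _ hx h2
    have h4 : x * y * x⁻¹ * y⁻¹ = 1 := Subgroup.disjoint_def.1 hd h3 h1
    have h5 : x * y * x⁻¹ = y := by
      rw [mul_inv_eq_one] at h4; exact h4
    show x * y = y * x
    calc x * y = (x * y * x⁻¹) * x := by group
      _ = y * x := by rw [h5]
  let ψ := Subgroup.noncommPiCoprod hcomm
  have hinj : Function.Injective ψ := Subgroup.injective_noncommPiCoprod_of_iSupIndep hind
  have hrange : ψ.range = H := by
    rw [← hsup]
    exact Subgroup.noncommPiCoprod_range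
  let e₁ : (∀ i, ↥(E i)) ≃* ↥H :=
    (MonoidHom.ofInjective hinj).trans (MulEquiv.subgroupCongr hrange)
  let φ : ∀ i, ↥(E i) ≃* Equiv.Perm (Fin 3) := fun i => (Classical.choice (hiso i)).trans slEquiv
  let e₂ : (∀ i, ↥(E i)) ≃* (ι → Equiv.Perm (Fin 3)) := MulEquiv.piCongrRight φ
  let e₃ : (ι → Equiv.Perm (Fin 3)) ≃* (Fin (Fintype.card ι) → Equiv.Perm (Fin 3)) :=
    MulEquiv.arrowCongr (Fintype.equivFin ι) (MulEquiv.refl _)
  exact ⟨Fintype.card ι, Fintype.card_pos, ⟨e₁.symm.trans (e₂.trans e₃)⟩⟩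

end internal

variable {X : Type*} [Group X] [Finite X]

/-- `W`: join of the centres of the Sylow `2`-subgroups. -/
def zW (X : Type*) [Group X] : Subgroup X :=
  ⨆ S : Sylow 2 X, (S : Subgroup X) ⊓ Subgroup.centralizer ((S : Subgroup X) : Set X)

instance zW_normal : (zW X).Normal := by
  constructor
  intro x hx g
  have hle : zW X ≤ (zW X).comap (MulAut.conj g).toMonoidHom := by
    apply iSup_le
    rintro S y ⟨hy1, hy2⟩
    change g * y * g⁻¹ ∈ zW X
    have hmem : ∀ z, z ∈ ((g • S : Sylow 2 X) : Subgroup X) ↔ g⁻¹ * z * g ∈ (S : Subgroup X) := by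
      intro z
      rw [Sylow.smul_def, Sylow.pointwise_smul_def, Subgroup.mem_pointwise_smul_iff_inv_smul_mem]
      simp [MulAut.smul_def, MulAut.conj_apply]
    refine (le_iSup (fun S : Sylow 2 X => (S : Subgroup X) ⊓ Subgroup.centralizer ((S : Subgroup X) : Set X)) (g • S)) ⟨?_, ?_⟩
    · show g * y * g⁻¹ ∈ ((g • S : Sylow 2 X) : Subgroup X)
      rw [hmem]
      have e : g⁻¹ * (g * y * g⁻¹) * g = y := by group
      rw [e]; exact hy1
    · refine Subgroup.mem_centralizer_iff.2 ?_
      intro w hw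
      have hw' : g⁻¹ * w * g ∈ (S : Subgroup X) := (hmem w).1 hw
      have h4 := Subgroup.mem_centralizer_iff.1 hy2 _ hw'
      calc w * (g * y * g⁻¹) = g * ((g⁻¹ * w * g) * y) * g⁻¹ := by group
        _ = g * (y * (g⁻¹ * w * g)) * g⁻¹ := by rw [h4]
        _ = g * y * g⁻¹ * w := by group
  exact hle hx

/-- The image of a normal subgroup which is a `2`-group modulo `C(W)` centralizes `W`. -/
theorem zW_core (M : Subgroup X) (hM : M.Normal)
    (h : ∀ x ∈ M, ∃ k : ℕ, x ^ 2 ^ k ∈ Subgroup.centralizer (zW X : Set X)) :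
    M ≤ Subgroup.centralizer (zW X : Set X) := by
  classical
  obtain ⟨C, hC⟩ : ∃ C, C = Subgroup.centralizer (zW X : Set X) := ⟨_, rfl⟩
  rw [← hC] at h ⊢
  haveI hCn : C.Normal := by
    rw [hC]; infer_instance
  intro x hx
  rw [hC]
  have hle : zW X ≤ Subgroup.centralizer ({x} : Set X) := by
    apply iSup_le
    rintro S y ⟨h1, h2⟩
    have hyV : y ∈ zW X :=
      (le_iSup (fun S : Sylow 2 X => (S : Subgroup X) ⊓ Subgroup.centralizer ((S : Subgroup X) : Set X)) S) ⟨h1, h2⟩
    have hsurj : Function.Surjective (QuotientGroup.mk' C) := QuotientGroup.mk'_surjective _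
    let T := S.mapSurjective hsurj
    have hMb : M.map (QuotientGroup.mk' C) ≤ pCore 2 (X ⧸ C) := by
      apply Cfsg.Agent.H01.le_pCore (hM.map _ hsurj)
      rintro ⟨_, z, hz, rfl⟩
      obtain ⟨k, hk⟩ := h z hz
      refine ⟨k, Subtype.ext ?_⟩
      change (QuotientGroup.mk' C) z ^ 2 ^ k = 1
      rw [← map_pow]
      exact (QuotientGroup.eq_one_iff _).mpr hk
    have h4 : (QuotientGroup.mk' C) x ∈ (T : Subgroup (X ⧸ C)) :=
      Cfsg.Agent.H01.pCore_le_sylow 2 T (hMb ⟨x, hx, rfl⟩)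
    rw [Sylow.coe_mapSurjective] at h4
    obtain ⟨s, hs, hsx⟩ := h4
    have hc : s⁻¹ * x ∈ C := by
      have h5 : (QuotientGroup.mk' C) (s⁻¹ * x) = 1 := by
        rw [map_mul, map_inv, ← hsx]; group
      exact (QuotientGroup.eq_one_iff _).mp h5
    rw [hC] at hc
    have h6 := Subgroup.mem_centralizer_iff.mp hc y hyV
    have h7 := Subgroup.mem_centralizer_iff.mp h2 s hs
    apply Subgroup.mem_centralizer_singleton_iff.mpr
    calc y * x = y * (s * (s⁻¹ * x)) := by group
      _ = (y * s) * (s⁻¹ * x) := by group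
      _ = (s * y) * (s⁻¹ * x) := by rw [← h7]
      _ = s * (y * (s⁻¹ * x)) := by group
      _ = s * ((s⁻¹ * x) * y) := by rw [h6]
      _ = x * y := by group
  refine Subgroup.mem_centralizer_iff.mpr fun y hy => ?_
  exact (Subgroup.mem_centralizer_singleton_iff.mp (hle hy))

/-- The core of the centralizer of `Z(T)`. -/
theorem core_eq (T : Sylow 2 X) :
    (Subgroup.centralizer (((T : Subgroup X) ⊓ Subgroup.centralizer ((T : Subgroup X) : Set X) : Subgroup X) : Set X)).normalCore =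
      Subgroup.centralizer (zW X : Set X) := by
  classical
  have hTW : (T : Subgroup X) ⊓ Subgroup.centralizer ((T : Subgroup X) : Set X) ≤ zW X :=
    le_iSup (fun S : Sylow 2 X => (S : Subgroup X) ⊓ Subgroup.centralizer ((S : Subgroup X) : Set X)) T
  apply le_antisymm
  · intro g hg
    refine Subgroup.mem_centralizer_iff.2 ?_
    intro y hy
    have hle : zW X ≤ Subgroup.centralizer ({g} : Set X) := by
      apply iSup_le
      rintro S z ⟨hz1, hz2⟩
      obtain ⟨h, hh⟩ := Cfsg.Agent.H20.sylow_conj T S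
      have h1 : h⁻¹ * g * h⁻¹⁻¹ ∈ Subgroup.centralizer (((T : Subgroup X) ⊓ Subgroup.centralizer ((T : Subgroup X) : Set X) : Subgroup X) : Set X) :=
        hg h⁻¹
      have h2 : h⁻¹ * z * h ∈ (T : Subgroup X) ⊓ Subgroup.centralizer ((T : Subgroup X) : Set X) := by
        refine ⟨(hh z).1 hz1, Subgroup.mem_centralizer_iff.2 ?_⟩
        intro t ht
        have h3 : h * t * h⁻¹ ∈ (S : Subgroup X) := by
          apply (hh _).2
          have e : h⁻¹ * (h * t * h⁻¹) * h = t := by group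
          rw [e]; exact ht
        have h4 := Subgroup.mem_centralizer_iff.1 hz2 _ h3
        calc t * (h⁻¹ * z * h) = h⁻¹ * ((h * t * h⁻¹) * z) * h := by group
          _ = h⁻¹ * (z * (h * t * h⁻¹)) * h := by rw [h4]
          _ = h⁻¹ * z * h * t := by group
      have h5 := Subgroup.mem_centralizer_iff.1 h1 _ h2
      rw [inv_inv] at h5
      apply Subgroup.mem_centralizer_singleton_iff.2
      have h6 : h⁻¹ * (z * g) * h = h⁻¹ * (g * z) * h := by
        calc h⁻¹ * (z * g) * h = (h⁻¹ * z * h) * (h⁻¹ * g * h) := by group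
          _ = (h⁻¹ * g * h) * (h⁻¹ * z * h) := h5
          _ = h⁻¹ * (g * z) * h := by group
      exact mul_left_cancel (mul_right_cancel h6)
    exact (Subgroup.mem_centralizer_singleton_iff.1 (hle hy))
  · intro g hg
    intro h
    have h1 : h * g * h⁻¹ ∈ Subgroup.centralizer (zW X : Set X) :=
      (inferInstance : (Subgroup.centralizer (zW X : Set X)).Normal).conj_mem g hg h
    exact Subgroup.centralizer_le hTW h1

section abel

variable (hF : fittingSubgroup X = pCore 2 X) [Group.IsSolvable X]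
include hF

theorem zW_le : zW X ≤ pCore 2 X ⊓ Subgroup.centralizer (pCore 2 X : Set X) := by
  have hcen : Subgroup.centralizer (pCore 2 X : Set X) ≤ pCore 2 X := by
    rw [← hF]
    exact Cfsg.Agent.H01.centralizer_fitting_le
  apply iSup_le
  rintro S y ⟨hy1, hy2⟩
  have h1 : y ∈ Subgroup.centralizer (pCore 2 X : Set X) :=
    Subgroup.centralizer_le (Cfsg.Agent.H01.pCore_le_sylow 2 S) hy2
  exact ⟨hcen h1, h1⟩

theorem zW_comm : ∀ a ∈ zW X, ∀ b ∈ zW X, a * b = b * a := by
  intro a ha b hb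
  have hle := zW_le hF
  exact (Subgroup.mem_centralizer_iff.1 (hle hb).2 a (hle ha).1)

theorem zW_isP : IsPGroup 2 (zW X) :=
  (Cfsg.Agent.H01.pCore_isPGroup 2).to_le ((zW_le hF).trans inf_le_left)

/-- `Ω₁(W)`. -/
def omV : Subgroup X where
  carrier := {x | x ∈ zW X ∧ x ^ 2 = 1}
  mul_mem' := by
    rintro a b ⟨ha1, ha2⟩ ⟨hb1, hb2⟩
    refine ⟨(zW X).mul_mem ha1 hb1, ?_⟩
    have hc : Commute a b := zW_comm hF a ha1 b hb1
    rw [hc.mul_pow, ha2, hb2, one_mul]
  one_mem' := ⟨(zW X).one_mem, one_pow _⟩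
  inv_mem' := by
    rintro a ⟨ha1, ha2⟩
    exact ⟨(zW X).inv_mem ha1, by rw [inv_pow, ha2, inv_one]⟩

theorem mem_omV {x : X} : x ∈ omV hF ↔ x ∈ zW X ∧ x ^ 2 = 1 := Iff.rfl

instance omV_normal : (omV hF).Normal := by
  constructor
  rintro x ⟨hx1, hx2⟩ g
  refine ⟨(inferInstance : (zW X).Normal).conj_mem x hx1 g, ?_⟩
  rw [conj_pow, hx2]
  group

theorem omV_ea : IsElementaryAbelian 2 (omV hF) := by
  refine ⟨⟨⟨?_⟩⟩, fun a ha => ha.2⟩
  rintro ⟨a, ha⟩ ⟨b, hb⟩
  apply Subtype.ext
  exact zW_comm hF a ha.1 b hb.1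

/-- An element of odd order centralizing `Ω₁(W)` centralizes `W`. -/
theorem odd_cent {g : X} (hg : g ∈ Subgroup.centralizer (omV hF : Set X)) (hodd : Odd (orderOf g)) :
    g ∈ Subgroup.centralizer (zW X : Set X) := by
  have hWn : (zW X).Normal := inferInstance
  have key : ∀ (k : ℕ) (w : X), w ∈ zW X → w ^ 2 ^ k = 1 → g * w * g⁻¹ = w := by
    intro k
    induction k with
    | zero =>
      intro w _ hw
      have : w = 1 := by simpa using hw
      rw [this]; group
    | succ k ih =>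
      intro w hw hk
      have h1 := ih (w ^ 2) ((zW X).pow_mem hw 2) (by rw [← pow_mul, ← pow_succ']; exact hk)
      have hw' : g * w * g⁻¹ ∈ zW X := hWn.conj_mem w hw g
      obtain ⟨u, hu⟩ : ∃ u, u = g * w * g⁻¹ * w⁻¹ := ⟨_, rfl⟩
      have huW : u ∈ zW X := by
        rw [hu]; exact (zW X).mul_mem hw' ((zW X).inv_mem hw)
      have hc : Commute (g * w * g⁻¹) w⁻¹ := zW_comm hF _ hw' _ ((zW X).inv_mem hw)
      have hu2 : u ^ 2 = 1 := by
        rw [hu, hc.mul_pow, conj_pow, h1, inv_pow]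
        group
      have huV : u ∈ omV hF := ⟨huW, hu2⟩
      have hgu : u * g = g * u := Subgroup.mem_centralizer_iff.1 hg u huV
      have hconj : g * w * g⁻¹ = u * w := by rw [hu]; group
      have hpow := conj_pow_of_fix hconj hgu.symm (orderOf g)
      rw [pow_orderOf_eq_one] at hpow
      have hun : u ^ orderOf g = 1 := by
        have h3 : w = u ^ orderOf g * w := by simpa using hpow
        exact mul_eq_right.1 h3.symm
      obtain ⟨m, hm⟩ := hodd
      rw [hm, pow_succ, pow_mul, hu2, one_pow, one_mul] at hun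
      rw [hconj, hun, one_mul]
  refine Subgroup.mem_centralizer_iff.2 ?_
  intro w hw
  obtain ⟨k, hk⟩ := (zW_isP hF) ⟨w, hw⟩
  have h1 : w ^ 2 ^ k = 1 := congrArg Subtype.val hk
  have h2 := key k w hw h1
  calc w * g = (g * w * g⁻¹) * g := by rw [h2]
    _ = g * w := by group

/-- `O₂(X / C(V)) = 1`. -/
theorem omV_core (M : Subgroup X) (hM : M.Normal)
    (h : ∀ x ∈ M, ∃ k : ℕ, x ^ 2 ^ k ∈ Subgroup.centralizer (omV hF : Set X)) :
    M ≤ Subgroup.centralizer (omV hF : Set X) := by
  have hVW : (omV hF) ≤ zW X := fun x hx => hx.1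
  have h1 : M ≤ Subgroup.centralizer (zW X : Set X) := by
    apply zW_core M hM
    intro x hx
    obtain ⟨k, hk⟩ := h x hx
    obtain ⟨a, b, hb, hab⟩ := Nat.exists_eq_two_pow_mul_odd (orderOf_pos x).ne'
    refine ⟨max a k, ?_⟩
    apply odd_cent hF
    · have e : max a k = (max a k - k) + k := by omega
      rw [e, pow_add, mul_comm, pow_mul]
      exact Subgroup.pow_mem _ hk _
    · have h2 : orderOf (x ^ 2 ^ max a k) ∣ b := by
        apply orderOf_dvd_of_pow_eq_one
        rw [← pow_mul]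
        have h3 : orderOf x ∣ 2 ^ max a k * b := by
          rw [hab]
          exact Nat.mul_dvd_mul_right (pow_dvd_pow 2 (le_max_left a k)) b
        exact orderOf_dvd_iff_pow_eq_one.1 h3
      exact Odd.of_dvd_nat hb h2
  exact h1.trans (Subgroup.centralizer_le hVW)

theorem cent_omV : Subgroup.centralizer (omV hF : Set X) = Subgroup.centralizer (zW X : Set X) := by
  apply le_antisymm
  · refine (zW_core _ inferInstance fun x hx => ?_)
    obtain ⟨a, b, hb, hab⟩ := Nat.exists_eq_two_pow_mul_odd (orderOf_pos x).ne'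
    refine ⟨a, ?_⟩
    apply odd_cent hF
    · exact Subgroup.pow_mem _ hx _
    · have h2 : orderOf (x ^ 2 ^ a) ∣ b := by
        apply orderOf_dvd_of_pow_eq_one
        rw [← pow_mul, ← hab, pow_orderOf_eq_one]
      exact Odd.of_dvd_nat hb h2
  · exact Subgroup.centralizer_le fun x hx => hx.1

end abel

end Cfsg.Agent.H20.TH
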