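import Cfsg.Agent.Lib.H20.TH2
import Cfsg.Agent.Lib.H06.PSolvable
import Mathlib

/-! Abelian subgroups of largest order act as best offenders. -/

set_option autoImplicit false
set_option linter.unusedVariables false
set_option linter.style.haveILetI false
set_option linter.unusedSectionVars false

namespace Cfsg.Agent.H20.TH

open Cfsg Cfsg.Agent.H14
open Cfsg.Agent.H02 (offVal)
open Matrix MatrixGroups
open scoped commutatorElement

variable {X : Type*} [Group X] [Finite X]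

/-- Abelian `2`-subgroups of largest order. -/
def MaxAb (X : Type*) [Group X] : Set (Subgroup X) :=
  {A | (∀ a ∈ A, ∀ b ∈ A, a * b = b * a) ∧ IsPGroup 2 A ∧
    ∀ B : Subgroup X, (∀ a ∈ B, ∀ b ∈ B, a * b = b * a) → IsPGroup 2 B → Nat.card B ≤ Nat.card A}

theorem isMulCommutative_of {G : Type*} [Group G] {A : Subgroup G} (h : ∀ a ∈ A, ∀ b ∈ A, a * b = b * a) :
    IsMulCommutative A :=
  ⟨⟨fun a b => Subtype.ext (h a a.2 b b.2)⟩⟩

theorem comm_of {G : Type*} [Group G] {A : Subgroup G} (h : IsMulCommutative A) :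
    ∀ a ∈ A, ∀ b ∈ A, a * b = b * a := by
  intro a ha b hb
  exact congrArg Subtype.val (h.1.comm ⟨a, ha⟩ ⟨b, hb⟩)

theorem comm_map {G G' : Type*} [Group G] [Group G'] {A : Subgroup G} (f : G →* G')
    (h : ∀ a ∈ A, ∀ b ∈ A, a * b = b * a) : ∀ a ∈ A.map f, ∀ b ∈ A.map f, a * b = b * a := by
  rintro _ ⟨a, ha, rfl⟩ _ ⟨b, hb, rfl⟩
  rw [← map_mul, ← map_mul, h a ha b hb]

theorem card_map_conj (g : X) (A : Subgroup X) : Nat.card (A.map (MulAut.conj g).toMonoidHom) = Nat.card A :=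
  (Nat.card_congr (Subgroup.equivMapOfInjective A _ (MulAut.conj g).injective).toEquiv).symm

theorem maxAb_conj {A : Subgroup X} (hA : A ∈ MaxAb X) (g : X) : A.map (MulAut.conj g).toMonoidHom ∈ MaxAb X := by
  refine ⟨comm_map _ hA.1, hA.2.1.map _, fun B hB hBp => ?_⟩
  rw [card_map_conj, ← card_map_conj g⁻¹ B]
  exact hA.2.2 _ (comm_map _ hB) (hBp.map _)

/-- Maximal abelian subgroups of a Sylow subgroup are maximal in the group. -/
theorem map_mem_maxAb (T : Sylow 2 X) {A : Subgroup ↥(T : Subgroup X)}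
    (hA : A ∈ maxAbelianSubgroups ↥(T : Subgroup X)) : A.map (T : Subgroup X).subtype ∈ MaxAb X := by
  obtain ⟨hAc, hAm⟩ := hA
  refine ⟨comm_map _ (comm_of hAc), (T.2.to_le (by
    rintro _ ⟨y, -, rfl⟩
    exact y.2)), fun B hB hBp => ?_⟩
  rw [← Nat.card_congr (Subgroup.equivMapOfInjective A _ (T : Subgroup X).subtype_injective).toEquiv]
  obtain ⟨S, hS⟩ := hBp.exists_le_sylow
  obtain ⟨g, hg⟩ := Cfsg.Agent.H20.sylow_conj T S
  have hle : B.map (MulAut.conj g⁻¹).toMonoidHom ≤ (T : Subgroup X) := by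
    rintro _ ⟨b, hb, rfl⟩
    have h1 := (hg b).1 (hS hb)
    simpa [MulAut.conj_apply] using h1
  have hcard : Nat.card ((B.map (MulAut.conj g⁻¹).toMonoidHom).subgroupOf (T : Subgroup X)) = Nat.card B := by
    rw [Nat.card_congr (Subgroup.subgroupOfEquivOfLe hle).toEquiv, card_map_conj]
  rw [← hcard]
  apply hAm
  apply isMulCommutative_of
  intro a ha b hb
  apply Subtype.ext
  have h1 := comm_map (MulAut.conj g⁻¹).toMonoidHom hB
  exact h1 _ (Subgroup.mem_subgroupOf.1 ha) _ (Subgroup.mem_subgroupOf.1 hb)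

/-- Elements of `MaxAb` inside a Sylow subgroup. -/
theorem subgroupOf_mem_maxAb (T : Sylow 2 X) {A : Subgroup X} (hA : A ∈ MaxAb X) (hAT : A ≤ (T : Subgroup X)) :
    A.subgroupOf (T : Subgroup X) ∈ maxAbelianSubgroups ↥(T : Subgroup X) := by
  refine ⟨isMulCommutative_of ?_, fun B hB => ?_⟩
  · intro a ha b hb
    apply Subtype.ext
    exact hA.1 _ (Subgroup.mem_subgroupOf.1 ha) _ (Subgroup.mem_subgroupOf.1 hb)
  · rw [Nat.card_congr (Subgroup.subgroupOfEquivOfLe hAT).toEquiv,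
      Nat.card_congr (Subgroup.equivMapOfInjective B _ (T : Subgroup X).subtype_injective).toEquiv]
    apply hA.2.2
    · exact comm_map _ (comm_of hB)
    · exact T.2.to_le (by
        rintro _ ⟨y, -, rfl⟩
        exact y.2)

/-- The join of all abelian `2`-subgroups of largest order is the normal closure of `J(T)`. -/
theorem normalClosure_eq (T : Sylow 2 X) :
    Subgroup.normalClosure (thompsonSubgroupAOf (T : Subgroup X) : Set X) = sSup (MaxAb X) := by
  classical
  haveI hn : (sSup (MaxAb X)).Normal := by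
    constructor
    intro x hx g
    have hle : sSup (MaxAb X) ≤ (sSup (MaxAb X)).comap (MulAut.conj g).toMonoidHom := by
      apply sSup_le
      intro A hA y hy
      exact (le_sSup (maxAb_conj hA g) : _ ≤ sSup (MaxAb X)) ⟨y, hy, rfl⟩
    exact hle hx
  apply le_antisymm
  · apply Subgroup.normalClosure_le_normal
    unfold thompsonSubgroupAOf thompsonSubgroupA
    intro x hx
    have hle : (sSup (maxAbelianSubgroups ↥(T : Subgroup X))).map (T : Subgroup X).subtype ≤ sSup (MaxAb X) := by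
      rw [Subgroup.map_le_iff_le_comap]
      apply sSup_le
      intro A hA y hy
      exact (le_sSup (map_mem_maxAb T hA) : _ ≤ sSup (MaxAb X)) ⟨y, hy, rfl⟩
    exact hle hx
  · apply sSup_le
    intro A hA x hx
    obtain ⟨S, hS⟩ := hA.2.1.exists_le_sylow
    obtain ⟨g, hg⟩ := Cfsg.Agent.H20.sylow_conj T S
    have hle : A.map (MulAut.conj g⁻¹).toMonoidHom ≤ (T : Subgroup X) := by
      rintro _ ⟨b, hb, rfl⟩
      have h1 := (hg b).1 (hS hb)
      simpa [MulAut.conj_apply] using h1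
    have h1 := subgroupOf_mem_maxAb T (maxAb_conj hA g⁻¹) hle
    have h2 : g⁻¹ * x * g ∈ thompsonSubgroupAOf (T : Subgroup X) := by
      have h3 : g⁻¹ * x * g ∈ A.map (MulAut.conj g⁻¹).toMonoidHom :=
        ⟨x, hx, by simp [MulAut.conj_apply]⟩
      refine ⟨⟨_, hle h3⟩, (le_sSup h1 : _ ≤ thompsonSubgroupA ↥(T : Subgroup X)) ?_, rfl⟩
      exact Subgroup.mem_subgroupOf.2 h3
    have h4 := (inferInstance : (Subgroup.normalClosure (thompsonSubgroupAOf (T : Subgroup X) : Set X)).Normal).conj_mem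
      _ (Subgroup.subset_normalClosure h2) g
    have e : g * (g⁻¹ * x * g) * g⁻¹ = x := by group
    rwa [e] at h4

/-- `X = Y N(J)`. -/
theorem frattini_Y (T : Sylow 2 X) :
    Subgroup.normalClosure (thompsonSubgroupAOf (T : Subgroup X) : Set X) ⊔
      Subgroup.normalizer (thompsonSubgroupAOf (T : Subgroup X) : Set X) = ⊤ := by
  classical
  obtain ⟨Y, hY⟩ : ∃ Y, Y = Subgroup.normalClosure (thompsonSubgroupAOf (T : Subgroup X) : Set X) := ⟨_, rfl⟩
  rw [← hY]
  haveI hYn : Y.Normal := by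
    rw [hY]; infer_instance
  have hJY : thompsonSubgroupAOf (T : Subgroup X) ≤ Y := by
    rw [hY]; exact Subgroup.le_normalClosure
  obtain ⟨P, hP⟩ := Cfsg.Agent.H13.exists_sylow_inf_normal T Y
  have hFrat := Sylow.normalizer_sup_eq_top P
  rw [eq_top_iff, ← hFrat, sup_comm]
  refine sup_le_sup le_rfl ?_
  intro g hg
  have hg' : g ∈ Subgroup.normalizer (((T : Subgroup X) ⊓ Y : Subgroup X) : Set X) := by
    have h0 : (P.map Y.subtype : Subgroup X) = (T : Subgroup X) ⊓ Y := by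
      rw [← hP]
    rw [← h0]
    exact hg
  apply Cfsg.Agent.H20.mem_normalizer_of_conj_le
  have hle : thompsonSubgroupAOf (T : Subgroup X) ≤
      (thompsonSubgroupAOf (T : Subgroup X)).comap (MulAut.conj g).toMonoidHom := by
    unfold thompsonSubgroupAOf thompsonSubgroupA
    rw [Subgroup.map_le_iff_le_comap]
    apply sSup_le
    intro A hA a ha
    have hA₁ := map_mem_maxAb T hA
    have hA₁T : A.map (T : Subgroup X).subtype ≤ (T : Subgroup X) := by
      rintro _ ⟨y, -, rfl⟩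
      exact y.2
    have hA₁J : A.map (T : Subgroup X).subtype ≤ thompsonSubgroupAOf (T : Subgroup X) :=
      Subgroup.map_mono (le_sSup hA)
    have hconj : (A.map (T : Subgroup X).subtype).map (MulAut.conj g).toMonoidHom ≤ (T : Subgroup X) := by
      rintro _ ⟨x, hx, rfl⟩
      have h1 : x ∈ ((T : Subgroup X) ⊓ Y : Subgroup X) := ⟨hA₁T hx, hJY (hA₁J hx)⟩
      exact ((Subgroup.mem_normalizer_iff.1 hg' x).1 h1).1
    have h2 := subgroupOf_mem_maxAb T (maxAb_conj hA₁ g) hconj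
    have h3 : g * (a : X) * g⁻¹ ∈ (A.map (T : Subgroup X).subtype).map (MulAut.conj g).toMonoidHom :=
      ⟨a, ⟨a, ha, rfl⟩, rfl⟩
    refine ⟨⟨_, hconj h3⟩, (le_sSup h2 : _ ≤ thompsonSubgroupA ↥(T : Subgroup X)) ?_, rfl⟩
    exact Subgroup.mem_subgroupOf.2 h3
  exact fun y hy => hle hy

section best

variable (hF : fittingSubgroup X = pCore 2 X) [Group.IsSolvable X]
include hF

/-- The key inequality. -/
theorem key_ineq {A B₀ : Subgroup X} (hA : A ∈ MaxAb X) (hB₀A : B₀ ≤ A) :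
    Nat.card B₀ * Nat.card ↥((omV hF) ⊓ Subgroup.centralizer (B₀ : Set X)) ≤
      Nat.card A * Nat.card ↥((omV hF) ⊓ Subgroup.centralizer (A : Set X)) := by
  classical
  obtain ⟨V, hV⟩ : ∃ V, V = omV hF := ⟨_, rfl⟩
  rw [← hV]
  have hVe : IsElementaryAbelian 2 V := by
    rw [hV]; exact omV_ea hF
  have hVc := Cfsg.Agent.H02.commV_of_ea hVe
  obtain ⟨U, hU⟩ : ∃ U, U = V ⊓ Subgroup.centralizer (B₀ : Set X) := ⟨_, rfl⟩
  rw [← hU]
  have hUV : U ≤ V := by
    rw [hU]; exact inf_le_left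
  obtain ⟨A₁, hA₁⟩ : ∃ A₁, A₁ = A ⊓ Subgroup.centralizer (U : Set X) := ⟨_, rfl⟩
  have hA₁A : A₁ ≤ A := by
    rw [hA₁]; exact inf_le_left
  have hA₁U : ∀ x ∈ A₁, ∀ u ∈ U, x * u = u * x := by
    intro x hx u hu
    rw [hA₁] at hx
    exact (Subgroup.mem_centralizer_iff.1 hx.2 u hu).symm
  have hUp : IsPGroup 2 U := (Cfsg.Agent.H02.ea_isPGroup hVe).to_le hUV
  have hnorm : U ≤ Subgroup.normalizer (A₁ : Set X) := by
    intro u hu
    apply Cfsg.Agent.H20.mem_normalizer_of_conj_le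
    intro x hx
    have e : u * x * u⁻¹ = x := by
      rw [← hA₁U x hx u hu]; group
    rw [e]; exact hx
  have hDcomm : ∀ a ∈ A₁ ⊔ U, ∀ b ∈ A₁ ⊔ U, a * b = b * a := by
    intro a ha b hb
    obtain ⟨x, hx, y, hy, rfl⟩ := Cfsg.Agent.H01.exists_mul_of_mem_sup hnorm ha
    obtain ⟨x', hx', y', hy', rfl⟩ := Cfsg.Agent.H01.exists_mul_of_mem_sup hnorm hb
    have h1 := hA.1 x (hA₁A hx) x' (hA₁A hx')
    have h2 := hVc y (hUV hy) y' (hUV hy')
    have h3 := hA₁U x' hx' y hy
    have h4 := hA₁U x hx y' hy'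
    calc x * y * (x' * y') = x * (y * x') * y' := by group
      _ = x * (x' * y) * y' := by rw [h3]
      _ = (x * x') * (y * y') := by group
      _ = (x' * x) * (y' * y) := by rw [h1, h2]
      _ = x' * (x * y') * y := by group
      _ = x' * (y' * x) * y := by rw [h4]
      _ = x' * y' * (x * y) := by group
  have hDp : IsPGroup 2 (A₁ ⊔ U : Subgroup X) :=
    IsPGroup.to_sup_of_normal_left' (hA.2.1.to_le hA₁A) hUp hnorm
  have hD := hA.2.2 _ hDcomm hDp
  have hcard := Cfsg.Agent.H25.card_sup_mul_inf hnorm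
  have hB₀A₁ : B₀ ≤ A₁ := by
    rw [hA₁]
    refine le_inf hB₀A (fun b hb => Subgroup.mem_centralizer_iff.2 ?_)
    intro u hu
    rw [hU] at hu
    exact (Subgroup.mem_centralizer_iff.1 hu.2 b hb).symm
  have hinf : A₁ ⊓ U ≤ V ⊓ Subgroup.centralizer (A : Set X) := by
    rintro z ⟨hz1, hz2⟩
    refine ⟨hUV hz2, Subgroup.mem_centralizer_iff.2 ?_⟩
    intro a ha
    exact hA.1 a ha z (hA₁A hz1)
  calc Nat.card B₀ * Nat.card U ≤ Nat.card A₁ * Nat.card U :=
        Nat.mul_le_mul_right _ (Subgroup.card_le_of_le hB₀A₁)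
    _ = Nat.card (A₁ ⊔ U : Subgroup X) * Nat.card (A₁ ⊓ U : Subgroup X) := hcard.symm
    _ ≤ Nat.card A * Nat.card ↥(V ⊓ Subgroup.centralizer (A : Set X)) :=
        Nat.mul_le_mul hD (Subgroup.card_le_of_le hinf)

/-- Elements of `MaxAb` give best offenders. -/
theorem best_ab {A : Subgroup X} (hA : A ∈ MaxAb X) :
    IsBestOffenderOn 2 (holV (omV hF)) (A.map (holF (omV hF))) := by
  classical
  have hV := omV_ea hF
  have hs : IsPSolvable 2 X := Cfsg.Agent.H06.isPSolvable_of_isSolvable 2 X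
  have hO := omV_core hF
  have hFF := hol_FFS (omV hF) hV hs hO (⊤ : Subgroup X)
  have hbest : ∀ B : Subgroup (Hol (omV hF)), B ≤ A.map (holF (omV hF)) →
      offVal (holV (omV hF)) B ≤ offVal (holV (omV hF)) (A.map (holF (omV hF))) := by
    intro Bb hBb
    obtain ⟨B₀, hB₀⟩ : ∃ B₀, B₀ = A ⊓ Bb.comap (holF (omV hF)) := ⟨_, rfl⟩
    have hB₀A : B₀ ≤ A := by
      rw [hB₀]; exact inf_le_left
    have hmap : B₀.map (holF (omV hF)) = Bb := by
      apply le_antisymm
      · rw [hB₀]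
        rintro _ ⟨x, hx, rfl⟩
        exact hx.2
      · intro z hz
        obtain ⟨a, ha, rfl⟩ := hBb hz
        exact ⟨a, by rw [hB₀]; exact ⟨ha, hz⟩, rfl⟩
    rw [← hmap]
    unfold offVal
    rw [card_fix, card_fix]
    have e : B₀ ⊓ Subgroup.centralizer (omV hF : Set X) = A ⊓ Subgroup.centralizer (omV hF : Set X) := by
      apply le_antisymm
      · exact inf_le_inf_right _ hB₀A
      · rintro x ⟨hx1, hx2⟩
        refine ⟨?_, hx2⟩
        rw [hB₀]
        refine ⟨hx1, ?_⟩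
        change holF (omV hF) x ∈ Bb
        rw [(holF_eq_one_iff (omV hF)).2 hx2]
        exact Bb.one_mem
    have h1 := card_map_holF (omV hF) B₀
    have h2 := card_map_holF (omV hF) A
    rw [e] at h1
    have h3 := key_ineq hF hA hB₀A
    rw [← h1, ← h2] at h3
    have hpos : 0 < Nat.card ↥(A ⊓ Subgroup.centralizer (omV hF : Set X)) := Nat.card_pos
    apply Nat.le_of_mul_le_mul_right _ hpos
    calc _ = Nat.card (B₀.map (holF (omV hF))) * Nat.card ↥(A ⊓ Subgroup.centralizer (omV hF : Set X)) * Nat.card ↥((omV hF) ⊓ Subgroup.centralizer (B₀ : Set X)) := by ring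
      _ ≤ _ := h3
      _ = _ := by ring
  have hel := elem_of_best hFF _ (A.map (holF (omV hF))) rfl (Subgroup.map_mono le_top) (hA.2.1.map _)
    (comm_map _ hA.1) hbest
  refine ⟨fun B hB => hbest B hB, ?_, fun a ha => ?_⟩
  · rw [Subgroup.commutator_le]
    intro g hg h hh
    have h3 : ⁅g, h⁆ = 1 := commutatorElement_eq_one_iff_commute.mpr (comm_map _ hA.1 g hg h hh)
    rw [h3]
    exact Subgroup.one_mem _
  · rw [hel a ha]
    exact Subgroup.one_mem _

end best

end Cfsg.Agent.H20.TH
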